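import Mathlib.GroupTheory.GroupAction.Quotient
import Mathlib.Algebra.BigOperators.Ring.Finset
import Mathlib.GroupTheory.Index
import Mathlib.GroupTheory.OrderOfElement
import Mathlib.Tactic.Linarith
import Mathlib.Tactic.Ring
import Mathlib.Tactic.Group

/-!
A finite group in which every non-trivial element has one axis, the stabiliser of an axis acts on
it by at most two elements, and which has an element of order at least six, fixes that element's
axis.
-/

namespace CfsgLib.Geometric.Orth.Frame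

open MulAction

variable {G X : Type*} [Group G] [Finite G] [MulAction G X]

section

variable (f : G → X) (hconj : ∀ g h : G, h ≠ 1 → f (g * h * g⁻¹) = g • f h)
  (hmul : ∀ g h : G, g ≠ 1 → h ≠ 1 → g * h ≠ 1 → f g = f h → f (g * h) = f g)
  (hinv : ∀ g : G, g ≠ 1 → f g⁻¹ = f g)

/-- The elements with a given axis, with the identity. -/
def axisGroup (L : X) : Subgroup G where
  carrier := {g | g = 1 ∨ f g = L}
  one_mem' := Or.inl rfl
  mul_mem' {g h} hg hh := by
    by_cases hg1 : g = 1
    · simpa [hg1] using hh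
    by_cases hh1 : h = 1
    · simpa [hh1] using hg
    by_cases hgh : g * h = 1
    · exact Or.inl hgh
    exact Or.inr ((hmul g h hg1 hh1 hgh ((hg.resolve_left hg1).trans
      (hh.resolve_left hh1).symm)).trans (hg.resolve_left hg1))
  inv_mem' {g} hg := by
    by_cases hg1 : g = 1
    · simp [hg1]
    · exact Or.inr ((hinv g hg1).trans (hg.resolve_left hg1))

include hconj in
omit [Finite G] in
lemma axisGroup_le_stabilizer (L : X) : axisGroup f hmul hinv L ≤ stabilizer G L := by
  rintro g (rfl | h)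
  · exact one_mem _
  by_cases hg : g = 1
  · exact hg ▸ one_mem _
  have := hconj g g hg
  rw [mul_inv_cancel_right, h] at this
  exact mem_stabilizer_iff.2 this.symm

end

variable {f : G → X} (hconj : ∀ g h : G, h ≠ 1 → f (g * h * g⁻¹) = g • f h)
  (hmul : ∀ g h : G, g ≠ 1 → h ≠ 1 → g * h ≠ 1 → f g = f h → f (g * h) = f g)
  (hinv : ∀ g : G, g ≠ 1 → f g⁻¹ = f g)
  (hidx : ∀ k : G, k ≠ 1 → ∀ g h : G, g • f k = f k → h • f k = f k →
    ¬(g = 1 ∨ f g = f k) → ¬(h = 1 ∨ f h = f k) → g * h = 1 ∨ f (g * h) = f k)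

open Classical in
/-- The non-trivial elements with axis in the orbit of `L`. -/
noncomputable def orbitFibre (f : G → X) (L : X) : Finset G :=
  haveI := Fintype.ofFinite G
  Finset.univ.filter fun g => g ≠ 1 ∧ f g ∈ orbit G L

lemma mem_orbitFibre {L : X} {g : G} : g ∈ orbitFibre f L ↔ g ≠ 1 ∧ f g ∈ orbit G L := by
  simp [orbitFibre]

include hconj hmul hinv hidx

/-- The size of an orbit fibre in terms of the orbit length `s`, the order `c` of the axis group
and its index `d` in the stabiliser. -/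
lemma card_orbitFibre (L : X) (hL : ∃ k : G, k ≠ 1 ∧ f k = L) :
    ∃ s d c : ℕ, (orbitFibre f L).card + s = s * c ∧ Nat.card G = s * (d * c) ∧
      (d = 1 ∨ d = 2) ∧ c = Nat.card (axisGroup f hmul hinv L) ∧ s = (orbit G L).ncard := by
  classical
  have := Fintype.ofFinite G
  set C := axisGroup f hmul hinv L with hC
  have hle : C ≤ stabilizer G L := axisGroup_le_stabilizer f hconj hmul hinv L
  have hd : (C.subgroupOf (stabilizer G L)).index = 1 ∨
      (C.subgroupOf (stabilizer G L)).index = 2 := by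
    by_cases htop : C.subgroupOf (stabilizer G L) = ⊤
    · exact Or.inl (Subgroup.index_eq_one.2 htop)
    obtain ⟨a, ha⟩ := SetLike.exists_not_mem_of_ne_top _ htop
    refine Or.inr (Subgroup.index_eq_two_iff.2 ⟨a, fun b => ?_⟩)
    by_cases hb : b ∈ C.subgroupOf (stabilizer G L)
    · exact Or.inr ⟨hb, fun h => ha (by simpa using mul_mem (inv_mem hb) h)⟩
    · refine Or.inl ⟨?_, hb⟩
      obtain ⟨k, hk, rfl⟩ := hL
      exact hidx k hk b a b.2 a.2 hb ha
  have hN : Nat.card G = (orbit G L).ncard *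
      ((C.subgroupOf (stabilizer G L)).index * Nat.card C) := by
    have h1 := Subgroup.card_mul_index (stabilizer G L)
    have h2 := Subgroup.card_mul_index (C.subgroupOf (stabilizer G L))
    rw [index_stabilizer] at h1
    rw [Nat.card_congr (Subgroup.subgroupOfEquivOfLe hle).toEquiv] at h2
    rw [← h1, ← h2]
    ring
  refine ⟨_, _, _, ?_, hN, hd, rfl, rfl⟩
  have hfib : ∀ M ∈ orbit G L,
      ((orbitFibre f L).filter fun g => f g = M).card + 1 = Nat.card C := by
    rintro M ⟨k, rfl⟩
    have hset : insert 1 ((orbitFibre f L).filter fun g => f g = k • L) =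
        (Finset.univ.filter fun g => g ∈ C).image fun g => k * g * k⁻¹ := by
      ext g
      simp only [Finset.mem_insert, Finset.mem_filter, mem_orbitFibre, Finset.mem_image,
        Finset.mem_univ, true_and]
      constructor
      · rintro (rfl | ⟨⟨hg, -⟩, hgM⟩)
        · exact ⟨1, one_mem C, by simp⟩
        · refine ⟨k⁻¹ * g * k, Or.inr ?_, by group⟩
          have := hconj k⁻¹ g hg
          rw [inv_inv, hgM, inv_smul_smul] at this
          exact this
      · rintro ⟨y, hy | hy, rfl⟩
        · exact Or.inl (by simp [hy])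
        · by_cases hy1 : y = 1
          · exact Or.inl (by simp [hy1])
          · exact Or.inr ⟨⟨by simpa using hy1, by rw [hconj k y hy1, hy]; exact ⟨k, rfl⟩⟩,
              by rw [hconj k y hy1, hy]⟩
    have h := congrArg Finset.card hset
    rw [Finset.card_insert_of_notMem (by simp [mem_orbitFibre]),
      Finset.card_image_of_injective _ (fun a b h => by simpa using h)] at h
    rw [h, Nat.card_eq_fintype_card, Fintype.card_subtype]
  have horb : (orbit G L).Finite := Set.finite_range _
  rw [Finset.card_eq_sum_card_fiberwise (f := f) (t := horb.toFinset)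
    (fun g hg => horb.mem_toFinset.2 (mem_orbitFibre.1 hg).2),
    Set.ncard_eq_toFinset_card _ horb, Finset.card_eq_sum_ones horb.toFinset,
    ← Finset.sum_add_distrib, Finset.sum_mul]
  refine Finset.sum_congr rfl fun M hM => ?_
  rw [one_mul]
  exact hfib M (horb.mem_toFinset.1 hM)

/-- The axis of an element of order at least six is fixed by the whole group. -/
theorem smul_axis_eq {h : G} (h6 : 6 ≤ orderOf h) (g : G) : g • f h = f h := by
  classical
  have := Fintype.ofFinite G
  set L := f h with hL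
  obtain ⟨s, d, c, hB, hN, hd, hc, hs⟩ := card_orbitFibre hconj hmul hinv hidx L
    ⟨h, fun e => by simp [e] at h6, rfl⟩
  have hc6 : 6 ≤ c := by
    rw [hc]
    exact h6.trans (Nat.le_of_dvd Nat.card_pos (Subgroup.orderOf_dvd_natCard _ (Or.inr rfl)))
  have horb : (orbit G L).Finite := Set.finite_range _
  by_cases hs1 : s ≤ 1
  · rw [hs] at hs1
    exact (Set.ncard_le_one horb).1 hs1 _ (mem_orbit L g) _ (mem_orbit_self L)
  exfalso
  -- further fibres
  have hnext : ∀ (Ks : Finset X), (∀ K ∈ Ks, ∀ K' ∈ Ks, K ≠ K' → K ∉ orbit G K') →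
      (∑ K ∈ Ks, (orbitFibre f K).card) + 1 < Nat.card G →
      ∃ K, K ∉ Ks ∧ (∀ K' ∈ insert K Ks, ∀ K'' ∈ insert K Ks, K' ≠ K'' → K' ∉ orbit G K'') ∧
        ∃ g : G, g ≠ 1 ∧ f g = K := by
    intro Ks hKs hlt
    obtain ⟨g, hg⟩ : ∃ g, g ∉ insert 1 (Ks.biUnion (orbitFibre f)) := by
      by_contra! hall
      have h1 := Finset.card_le_card (s := Finset.univ) (fun g _ => hall g)
      rw [Finset.card_univ, ← Nat.card_eq_fintype_card] at h1
      have h2 := Finset.card_insert_le 1 (Ks.biUnion (orbitFibre f))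
      have h3 := Finset.card_biUnion_le (s := Ks) (t := orbitFibre f)
      omega
    simp only [Finset.mem_insert, Finset.mem_biUnion, mem_orbitFibre, not_or, not_exists,
      not_and] at hg
    have hout : ∀ K ∈ Ks, f g ∉ orbit G K := fun K hK h => hg.2 K hK hg.1 h
    refine ⟨f g, fun h => hout _ h (mem_orbit_self _), ?_, g, hg.1, rfl⟩
    intro a ha b hb hab hmem
    rcases Finset.mem_insert.1 ha with rfl | ha <;> rcases Finset.mem_insert.1 hb with rfl | hb
    · exact hab rfl
    · exact hout b hb hmem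
    · exact hout a ha (mem_orbit_symm.1 hmem)
    · exact hKs a ha b hb hab hmem
  have hsum : ∀ (Ks : Finset X), (∀ K ∈ Ks, ∀ K' ∈ Ks, K ≠ K' → K ∉ orbit G K') →
      (∑ K ∈ Ks, (orbitFibre f K).card) + 1 ≤ Nat.card G := by
    intro Ks hKs
    rw [← Finset.card_biUnion (fun a ha b hb hab => Finset.disjoint_left.2 fun g h1 h2 =>
      hKs a ha b hb hab (orbit_eq_iff.1 ((orbit_eq_iff.2 (mem_orbitFibre.1 h1).2).symm.trans
        (orbit_eq_iff.2 (mem_orbitFibre.1 h2).2)))), Nat.card_eq_fintype_card, ← Finset.card_univ,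
      ← Finset.card_insert_of_notMem (a := (1 : G)) (by simp [mem_orbitFibre])]
    exact Finset.card_le_card (Finset.subset_univ _)
  have hkind : ∀ K, (∃ g : G, g ≠ 1 ∧ f g = K) →
      4 * (orbitFibre f K).card = Nat.card G ∨ Nat.card G ≤ 3 * (orbitFibre f K).card := by
    rintro K ⟨g₁, hg₁, rfl⟩
    obtain ⟨s', d', c', hB', hN', hd', hc', -⟩ := card_orbitFibre hconj hmul hinv hidx (f g₁)
      ⟨g₁, hg₁, rfl⟩
    have h2 : 2 ≤ c' := by
      rw [hc']
      exact (Nat.succ_le_of_lt (Finite.one_lt_card_iff_nontrivial.2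
        ⟨⟨1, one_mem _⟩, ⟨g₁, Or.inr rfl⟩, fun h => hg₁ (congrArg Subtype.val h).symm⟩))
    rcases hd' with rfl | rfl
    · right
      rw [hN']
      nlinarith [Nat.mul_le_mul_left s' h2]
    · rcases eq_or_lt_of_le h2 with h | h
      · left; subst h; omega
      · right
        rw [hN']
        nlinarith [Nat.mul_le_mul_left s' (show 3 ≤ c' from h)]
  have hL1 : ∀ K ∈ ({L} : Finset X), ∀ K' ∈ ({L} : Finset X), K ≠ K' → K ∉ orbit G K' := by
    simp
  have hsc : 2 * c ≤ s * c := Nat.mul_le_mul_right c (by omega)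
  have hs6 : s * 6 ≤ s * c := Nat.mul_le_mul_left s hc6
  obtain ⟨K₁, hK₁, hKs₁, hg₁⟩ := hnext {L} hL1 (by
    rw [Finset.sum_singleton, hN]; rcases hd with rfl | rfl <;> nlinarith)
  have hk₁ := hkind K₁ hg₁
  have h₁ := hsum _ hKs₁
  rw [Finset.sum_insert hK₁, Finset.sum_singleton] at h₁
  rcases hd with rfl | rfl
  · rw [one_mul] at hN
    omega
  by_cases hlt₁ : (orbitFibre f K₁).card + (orbitFibre f L).card + 1 < Nat.card G
  swap
  · obtain ⟨s', d', c', hB', hN', hd', hc', -⟩ := card_orbitFibre hconj hmul hinv hidx K₁ hg₁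
    obtain ⟨g', hg', hfg'⟩ := hg₁
    have h2 : 2 ≤ c' := by
      rw [hc']
      exact (Nat.succ_le_of_lt (Finite.one_lt_card_iff_nontrivial.2
        ⟨⟨1, one_mem _⟩, ⟨g', Or.inr hfg'⟩, fun h => hg' (congrArg Subtype.val h).symm⟩))
    rcases hd' with rfl | rfl
    · rcases eq_or_lt_of_le h2 with h | h
      · subst h; nlinarith
      · nlinarith [Nat.mul_le_mul_left s' (show 3 ≤ c' from h)]
    · nlinarith
  obtain ⟨K₂, hK₂, hKs₂, hg₂⟩ := hnext (insert K₁ {L}) hKs₁ (by
    rw [Finset.sum_insert hK₁, Finset.sum_singleton]; exact hlt₁)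
  have hk₂ := hkind K₂ hg₂
  have h₂ := hsum _ hKs₂
  rw [Finset.sum_insert hK₂, Finset.sum_insert hK₁, Finset.sum_singleton] at h₂
  by_cases hlt₂ : (orbitFibre f K₂).card + (orbitFibre f K₁).card + (orbitFibre f L).card + 1 <
      Nat.card G
  · obtain ⟨K₃, hK₃, hKs₃, hg₃⟩ := hnext (insert K₂ (insert K₁ {L})) hKs₂ (by
      rw [Finset.sum_insert hK₂, Finset.sum_insert hK₁, Finset.sum_singleton]; omega)
    have hk₃ := hkind K₃ hg₃
    have h₃ := hsum _ hKs₃
    rw [Finset.sum_insert hK₃, Finset.sum_insert hK₂, Finset.sum_insert hK₁,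
      Finset.sum_singleton] at h₃
    have : Nat.card G ≤ 4 * (orbitFibre f K₁).card := by omega
    have : Nat.card G ≤ 4 * (orbitFibre f K₂).card := by omega
    have : Nat.card G ≤ 4 * (orbitFibre f K₃).card := by omega
    nlinarith
  · rcases hk₁ with hk₁ | hk₁ <;> rcases hk₂ with hk₂ | hk₂ <;> nlinarith

end CfsgLib.Geometric.Orth.Frame
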