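import Cfsg.Agent.Lib.Geometric.Orth.DecompSiegel

/-!
Coordinates in an orthogonal frame of equal values, and the vectors of that value whose reflection
differs from a frame reflection by an element of a given group.
-/

namespace CfsgLib.Geometric.Orth.Frame

open Matrix QuadraticMap CfsgLib.ClassicalForms

variable {ι : Type} [Fintype ι] [DecidableEq ι] {F : Type*} [Field F]
variable {t : ℕ} {Q : QuadraticForm F (ι → F)} {c : F} {e : Fin t → ι → F}

/-- The coordinate at the frame vector `e i`. -/
def co (Q : QuadraticForm F (ι → F)) (c : F) (e : Fin t → ι → F) (i : Fin t) :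
    (ι → F) →ₗ[F] F :=
  (2 * c)⁻¹ • pf Q (e i)

omit [Fintype ι] [DecidableEq ι] in
lemma co_apply (i : Fin t) (x : ι → F) : co Q c e i x = (2 * c)⁻¹ * polar Q x (e i) := rfl

/-- An orthogonal frame with all values equal to `c`, in odd characteristic. -/
structure IsFrame (Q : QuadraticForm F (ι → F)) (c : F) (e : Fin t → ι → F) : Prop where
  two : (2 : F) ≠ 0
  ne_zero : c ≠ 0
  value : ∀ i, Q (e i) = c
  orth : ∀ i j, i ≠ j → polar Q (e i) (e j) = 0
  rep : ∀ x, ∑ i, co Q c e i x • e i = x

namespace IsFrame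

variable (hf : IsFrame Q c e)
include hf

omit [Fintype ι] [DecidableEq ι] in
lemma two_c : (2 * c : F) ≠ 0 := mul_ne_zero hf.two hf.ne_zero

omit [Fintype ι] [DecidableEq ι] in
lemma polar_e (i : Fin t) (x : ι → F) : polar Q x (e i) = 2 * c * co Q c e i x := by
  rw [co_apply, mul_inv_cancel_left₀ hf.two_c]

omit [Fintype ι] [DecidableEq ι] in
@[simp] lemma co_e (i j : Fin t) : co Q c e i (e j) = if i = j then 1 else 0 := by
  split_ifs with h
  · rw [co_apply, h, polar_self_mul, hf.value, inv_mul_cancel₀ hf.two_c]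
  · rw [co_apply, hf.orth j i (Ne.symm h), mul_zero]

omit [Fintype ι] [DecidableEq ι] in
lemma ext {x y : ι → F} (h : ∀ i, co Q c e i x = co Q c e i y) : x = y := by
  rw [← hf.rep x, ← hf.rep y]
  exact Finset.sum_congr rfl fun i _ => by rw [h i]

omit [Fintype ι] [DecidableEq ι] in
lemma polar_eq (x y : ι → F) :
    polar Q x y = 2 * c * ∑ i, co Q c e i x * co Q c e i y := by
  conv_lhs => rw [← hf.rep y]
  have h : ∀ s : Finset (Fin t), polar Q x (∑ i ∈ s, co Q c e i y • e i) =
      2 * c * ∑ i ∈ s, co Q c e i x * co Q c e i y := fun s => by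
    classical
    induction s using Finset.induction_on with
    | empty => simp
    | insert a s ha ih =>
      rw [Finset.sum_insert ha, Finset.sum_insert ha, polar_add_right, polar_smul_right, ih,
        hf.polar_e, smul_eq_mul]
      ring
  exact h Finset.univ

omit [Fintype ι] [DecidableEq ι] in
lemma value_eq (x : ι → F) : Q x = c * ∑ i, co Q c e i x * co Q c e i x := by
  refine mul_left_cancel₀ hf.two ?_
  rw [← polar_self_mul, hf.polar_eq]
  ring

omit [Fintype ι] [DecidableEq ι] in
lemma nondeg : Nondeg Q := fun x hx => hf.ext fun i => by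
  rw [map_zero, co_apply, hx, mul_zero]

lemma co_rf_e (m i : Fin t) (x : ι → F) :
    co Q c e i (ap (rf Q (e m)) x) = if i = m then -co Q c e i x else co Q c e i x := by
  rw [ap_rf, map_sub, map_smul, smul_eq_mul, hf.value, hf.polar_e, hf.co_e]
  split_ifs with h
  · subst h
    field_simp [hf.ne_zero]
    ring
  · ring

lemma co_rf_swap {a b : Fin t} (hab : a ≠ b) (i : Fin t) (x : ι → F) :
    co Q c e i (ap (rf Q (e a - e b)) x) = co Q c e (Equiv.swap a b i) x := by
  have hQ : Q (e a - e b) = 2 * c := by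
    rw [map_sub_eq, hf.value, hf.value, hf.orth a b hab]; ring
  rw [ap_rf, map_sub, map_smul, smul_eq_mul, hQ, polar_sub_right, hf.polar_e, hf.polar_e, map_sub,
    hf.co_e, hf.co_e]
  by_cases hia : i = a
  · subst hia
    rw [Equiv.swap_apply_left, if_pos rfl, if_neg hab]
    have := hf.ne_zero
    have := hf.two
    field_simp
    ring
  by_cases hib : i = b
  · subst hib
    rw [Equiv.swap_apply_right, if_pos rfl, if_neg hia]
    have := hf.ne_zero
    have := hf.two
    field_simp
    ring
  rw [Equiv.swap_apply_of_ne_of_ne hia hib, if_neg hia, if_neg hib]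
  ring

end IsFrame

lemma rf_mul_self (v : ι → F) : rf Q v * rf Q v = 1 := by
  refine gl_ext fun x => ?_
  rw [ap_mul, ap_one, ap_rf, ap_rf, polar_sub_left, polar_smul_left, polar_self_mul, smul_eq_mul]
  by_cases h : Q v = 0
  · simp [h]
  · match_scalars <;> field_simp <;> ring

lemma rf_mul_self_left (v : ι → F) (g : GL ι F) : rf Q v * (rf Q v * g) = g := by
  rw [← mul_assoc, rf_mul_self, one_mul]

lemma rf_inv (v : ι → F) : (rf Q v)⁻¹ = rf Q v :=
  inv_eq_of_mul_eq_one_right (rf_mul_self v)

lemma conj_rf {g : GL ι F} (hg : g ∈ Cfsg.isometryGroup F (⇑Q)) (v : ι → F) :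
    g * rf Q v * g⁻¹ = rf Q (ap g v) := by
  refine gl_ext fun x => ?_
  obtain ⟨y, rfl⟩ : ∃ y, x = ap g y := ⟨ap g⁻¹ x, (ap_ap_inv g x).symm⟩
  rw [ap_mul, ap_mul, ap_inv_ap, ap_rf, ap_rf, mem_isometryGroup_iff.mp hg, polar_ap hg, ap_sub,
    ap_smul]

lemma rf_neg (v : ι → F) : rf Q (-v) = rf Q v := by
  refine gl_ext fun x => ?_
  rw [ap_rf, ap_rf, QuadraticMap.map_neg, polar_neg_right, mul_neg, neg_smul, smul_neg, neg_neg]

/-- The setting: a group of isometries containing the elements of `omegaGL` built from frame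
reflections and from pairs of transpositions, over a prime field of odd order. -/
structure Over (Q : QuadraticForm F (ι → F)) (c : F) (e : Fin t → ι → F)
    (M : Subgroup (GL ι F)) : Prop where
  frame : IsFrame Q c e
  isom : M ≤ Cfsg.isometryGroup F (⇑Q)
  sign : ∀ i j, rf Q (e i) * rf Q (e j) ∈ M
  swap : ∀ a b a' b', a ≠ b → a' ≠ b' → rf Q (e a - e b) * rf Q (e a' - e b') ∈ M
  surj : ∀ a : F, ∃ k : ℕ, (k : F) = a
  large : 7 ≤ t

/-- `v` has the value `c` and its reflection times any frame reflection lies in `M`. -/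
def Refl (Q : QuadraticForm F (ι → F)) (c : F) (e : Fin t → ι → F) (M : Subgroup (GL ι F))
    (v : ι → F) : Prop :=
  Q v = c ∧ ∀ i, rf Q v * rf Q (e i) ∈ M

variable {M : Subgroup (GL ι F)} (h : Over Q c e M) {v w : ι → F}
include h

lemma Refl.frame (i : Fin t) : Refl Q c e M (e i) := ⟨h.frame.value i, h.sign i⟩

lemma Refl.mul (hv : Refl Q c e M v) (hw : Refl Q c e M w) : rf Q v * rf Q w ∈ M := by
  let o : Fin t := ⟨0, by have := h.large; omega⟩
  have := mul_mem (hv.2 o) (inv_mem (hw.2 o))
  rwa [_root_.mul_inv_rev, rf_inv, rf_inv, mul_assoc, ← mul_assoc (rf Q (e o)), rf_mul_self,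
    one_mul] at this

omit h in
lemma Refl.neg (hv : Refl Q c e M v) : Refl Q c e M (-v) :=
  ⟨by rw [QuadraticMap.map_neg]; exact hv.1, fun i => by rw [rf_neg]; exact hv.2 i⟩

lemma Refl.reflect (hv : Refl Q c e M v) (hw : Refl Q c e M w) :
    Refl Q c e M (ap (rf Q w) v) := by
  refine ⟨by rw [mem_isometryGroup_iff.mp (rf_mem_isom w)]; exact hv.1, fun i => ?_⟩
  have := mul_mem (hw.mul h hv) (hw.mul h (Refl.frame h i))
  rw [← conj_rf (rf_mem_isom w), rf_inv]
  simpa [mul_assoc] using this

/-- An element of `M` moving one frame vector to such a vector preserves all of them. -/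
lemma Refl.ap {g : GL ι F} (hg : g ∈ M) {o : Fin t} (ho : Refl Q c e M (Geometric.ap g (e o)))
    (hv : Refl Q c e M v) : Refl Q c e M (Geometric.ap g v) := by
  refine ⟨by rw [mem_isometryGroup_iff.mp (h.isom hg)]; exact hv.1, fun i => ?_⟩
  have ho' := ho.2 i
  rw [← conj_rf (h.isom hg) (e o)] at ho'
  rw [← conj_rf (h.isom hg) v]
  have := mul_mem (mul_mem (mul_mem hg (hv.2 o)) (inv_mem hg)) ho'
  simpa [mul_assoc, rf_mul_self_left] using this

lemma Refl.pair (hv : Refl Q c e M v) {x y : ι → F} (hx : Refl Q c e M x)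
    (hy : Refl Q c e M y) : Refl Q c e M (Geometric.ap (rf Q x * rf Q y) v) := by
  rw [ap_mul]
  exact Refl.reflect h (Refl.reflect h hv hy) hx

lemma Refl.sum_sq (hv : Refl Q c e M v) : ∑ i, co Q c e i v * co Q c e i v = 1 := by
  refine mul_left_cancel₀ h.frame.ne_zero ?_
  rw [← h.frame.value_eq, hv.1, mul_one]

/-- Signs may be changed on any set of coordinates. -/
lemma Refl.flip (hv : Refl Q c e M v) (T : Finset (Fin t)) :
    ∃ w, Refl Q c e M w ∧
      ∀ i, co Q c e i w = if i ∈ T then -co Q c e i v else co Q c e i v := by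
  induction T using Finset.induction_on with
  | empty => exact ⟨v, hv, by simp⟩
  | insert a T ha ih =>
    obtain ⟨w, hw, hco⟩ := ih
    refine ⟨_, hw.reflect h (Refl.frame h a), fun i => ?_⟩
    rw [h.frame.co_rf_e, hco]
    by_cases hia : i = a
    · subst hia
      rw [if_pos rfl, if_neg ha, if_pos (Finset.mem_insert_self _ _)]
    · simp [hia]

/-- Coordinates may be permuted by pairs of transpositions. -/
lemma Refl.swap_pair (hv : Refl Q c e M v) {a b a' b' : Fin t} (hab : a ≠ b) (ha'b' : a' ≠ b') :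
    ∃ w, Refl Q c e M w ∧
      ∀ i, co Q c e i w = co Q c e (Equiv.swap a' b' (Equiv.swap a b i)) v := by
  obtain ⟨o, ho⟩ : ∃ o, o ∉ ({a, b, a', b'} : Finset (Fin t)) := by
    obtain ⟨o, -, ho⟩ := Finset.exists_mem_notMem_of_card_lt_card
      (s := ({a, b, a', b'} : Finset (Fin t))) (t := Finset.univ) (by
        rw [Finset.card_univ, Fintype.card_fin]
        have := Finset.card_le_four (a := a) (b := b) (c := a') (d := b')
        have := h.large
        omega)
    exact ⟨o, ho⟩
  simp only [Finset.mem_insert, Finset.mem_singleton, not_or] at ho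
  have hfix : Geometric.ap (rf Q (e a - e b) * rf Q (e a' - e b')) (e o) = e o := by
    have h1 : polar Q (e o) (e a' - e b') = 0 := by
      rw [polar_sub_right, h.frame.orth o a' ho.2.2.1, h.frame.orth o b' ho.2.2.2, sub_zero]
    have h2 : polar Q (e o) (e a - e b) = 0 := by
      rw [polar_sub_right, h.frame.orth o a ho.1, h.frame.orth o b ho.2.1, sub_zero]
    rw [ap_mul, ap_rf_fix h1, ap_rf_fix h2]
  refine ⟨_, Refl.ap h (h.swap a b a' b' hab ha'b') (o := o)
    (by rw [hfix]; exact Refl.frame h o) hv, fun i => ?_⟩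
  rw [ap_mul, h.frame.co_rf_swap hab, h.frame.co_rf_swap ha'b']

end CfsgLib.Geometric.Orth.Frame
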