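import Cfsg.Agent.Lib.Geometric.Orth.Frame.Odd
import Cfsg.Agent.Lib.Geometric.Orth.DecompStabMax
import Cfsg.Agent.Lib.Geometric.OrthMonomial.Descent

/-!
The stabiliser of an orthogonal frame of equal values is maximal in `omegaGL` in any dimension
over a prime field: some element outside it fixing a frame line gives a reflection vector off the
frame.
-/

namespace CfsgLib.Geometric.Orth.Frame

open Matrix QuadraticMap CfsgLib.ClassicalForms

variable {ι : Type} [Fintype ι] [DecidableEq ι] {F : Type*} [Field F]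
variable {Q : QuadraticForm F (ι → F)} {t : ℕ} {c : F} {e : Fin t → ι → F}

/-- The map sending the standard basis to the frame. -/
noncomputable def IsFrame.chart (hf : IsFrame Q c e) (σ : ι ≃ Fin t) : GL ι F :=
  ofEquiv
    { toFun := fun x => ∑ j, x j • e (σ j)
      map_add' := fun x y => by simp [add_smul, Finset.sum_add_distrib]
      map_smul' := fun a x => by simp [Finset.smul_sum, smul_smul]
      invFun := fun v j => co Q c e (σ j) v
      left_inv := fun x => funext fun j => by
        simp [map_sum, map_smul, hf.co_e, σ.injective.eq_iff]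
      right_inv := fun v => by
        change ∑ j, co Q c e (σ j) v • e (σ j) = v
        rw [σ.sum_comp fun i => co Q c e i v • e i]
        exact hf.rep v }

variable (hf : IsFrame Q c e) (σ : ι ≃ Fin t)
include hf

lemma IsFrame.co_chart (x : ι → F) (i : Fin t) :
    co Q c e i (ap (hf.chart σ) x) = x (σ.symm i) := by
  obtain ⟨j, rfl⟩ := σ.surjective i
  rw [IsFrame.chart, ap_ofEquiv]
  simp [map_sum, map_smul, hf.co_e, σ.injective.eq_iff]

lemma IsFrame.value_chart (x : ι → F) : Q (ap (hf.chart σ) x) = c * (x ⬝ᵥ x) := by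
  rw [hf.value_eq]
  simp only [hf.co_chart]
  rw [σ.symm.sum_comp fun j => x j * x j]
  rfl

lemma IsFrame.chart_single (j : ι) :
    ap (hf.chart σ) (Pi.single j (1 : F)) = e (σ j) :=
  hf.ext fun i => by
    rw [hf.co_chart, hf.co_e, Pi.single_apply]
    exact if_congr σ.symm_apply_eq rfl rfl

lemma IsFrame.co_conj (g : GL ι F) (v : ι → F) (i : Fin t) :
    co Q c e i (ap (hf.chart σ * g * (hf.chart σ)⁻¹) v) =
      ap g (fun j => co Q c e (σ j) v) (σ.symm i) := by
  rw [ap_mul, ap_mul, hf.co_chart]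
  congr 2
  refine ap_injective (hf.chart σ) ((ap_ap_inv _ v).trans (hf.ext fun k => ?_))
  rw [hf.co_chart, Equiv.apply_symm_apply]

/-- The pull-back of a subgroup to the standard basis. -/
noncomputable def IsFrame.pull (M : Subgroup (GL ι F)) : Subgroup (GL ι F) :=
  M.comap (MulAut.conj (hf.chart σ)).toMonoidHom

lemma IsFrame.mem_pull {M : Subgroup (GL ι F)} {g : GL ι F} :
    g ∈ hf.pull σ M ↔ hf.chart σ * g * (hf.chart σ)⁻¹ ∈ M := Iff.rfl

lemma IsFrame.pull_le {M : Subgroup (GL ι F)} (hM : M ≤ Cfsg.isometryGroup F (⇑Q)) :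
    hf.pull σ M ≤ OMon.GOs ι F := fun g hg => OMon.mem_GOs fun x => by
  have h := mem_isometryGroup_iff.mp (hM ((hf.mem_pull σ).mp hg)) (ap (hf.chart σ) x)
  rw [ap_mul, ap_mul, ap_inv_ap, hf.value_chart, hf.value_chart] at h
  exact mul_left_cancel₀ hf.ne_zero h

omit hf in
lemma monX_pull {M : Subgroup (GL ι F)} (h : Over Q c e M) :
    OMon.MonX (h.frame.pull σ M) := by
  classical
  intro π d hπ hd hprod
  set X := h.frame.pull σ M
  have hsign : ∀ A : Finset ι, Even A.card → OMon.dg F A ∈ X := fun A hA => by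
    obtain ⟨g, hg, hgco⟩ := exists_negation h (A.map σ.toEmbedding) (by rwa [Finset.card_map])
    refine (h.frame.mem_pull σ).mpr ?_
    convert hg using 1
    refine gl_ext fun v => h.frame.ext fun k => ?_
    rw [h.frame.co_conj, hgco, OMon.ap_dg]
    simp [Finset.mem_map_equiv]
  have htwo : ∀ a b a' b' : ι, a ≠ b → a' ≠ b' →
      OMon.pm F (Equiv.swap a b * Equiv.swap a' b') ∈ X := fun a b a' b' hab ha'b' => by
    refine (h.frame.mem_pull σ).mpr ?_
    convert h.swap (σ a) (σ b) (σ a') (σ b') (σ.injective.ne hab) (σ.injective.ne ha'b') using 1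
    refine gl_ext fun v => h.frame.ext fun k => ?_
    rw [h.frame.co_conj, OMon.ap_pm, ap_mul, h.frame.co_rf_swap (σ.injective.ne hab),
      h.frame.co_rf_swap (σ.injective.ne ha'b')]
    have hs : ∀ (x y : ι) (z : Fin t), σ (Equiv.swap x y (σ.symm z)) = Equiv.swap (σ x) (σ y) z :=
      fun x y z => by rw [σ.injective.map_swap, Equiv.apply_symm_apply]
    congr 2
    simp only [Equiv.Perm.mul_def, Equiv.symm_trans_apply, Equiv.symm_swap]
    rw [← hs a' b', ← hs a b, Equiv.symm_apply_apply]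
  have hperm : ∀ ρ : Equiv.Perm ι, (Equiv.Perm.sign ρ = 1 → OMon.pm F ρ ∈ X) ∧
      (Equiv.Perm.sign ρ = -1 → ∀ a b, a ≠ b → OMon.pm F (Equiv.swap a b * ρ) ∈ X) := by
    have hmul : ∀ ρ τ : Equiv.Perm ι, OMon.pm F ρ * OMon.pm F τ = OMon.pm F (ρ * τ) :=
      fun ρ τ => gl_ext fun x => funext fun i => by
        rw [ap_mul, OMon.ap_pm, OMon.ap_pm, OMon.ap_pm]; rfl
    intro ρ
    induction ρ using Equiv.Perm.swap_induction_on with
    | one =>
      refine ⟨fun _ => ?_, fun h1 => absurd h1 (by simp)⟩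
      convert X.one_mem
      exact gl_ext fun x => funext fun i => by rw [OMon.ap_pm, ap_one]; rfl
    | swap_mul f x y hxy ih =>
      refine ⟨fun h1 => ih.2 ?_ x y hxy, fun h1 a b hab => ?_⟩
      · rw [map_mul, Equiv.Perm.sign_swap hxy] at h1
        calc Equiv.Perm.sign f = -1 * (-1 * Equiv.Perm.sign f) := by simp
          _ = -1 := by rw [h1, mul_one]
      · rw [← mul_assoc, ← hmul]
        refine mul_mem (htwo a b x y hab hxy) (ih.1 ?_)
        rw [map_mul, Equiv.Perm.sign_swap hxy] at h1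
        calc Equiv.Perm.sign f = -1 * (-1 * Equiv.Perm.sign f) := by simp
          _ = 1 := by rw [h1]; simp
  set A := Finset.univ.filter fun i => d i = -1
  have hne : (-1 : Fˣ) ≠ 1 := fun e1 => h.frame.two (by
    have := congrArg Units.val e1
    simp at this
    linear_combination -this)
  have hA : Even A.card := by
    by_contra hodd
    rw [Nat.not_even_iff_odd] at hodd
    have : ∏ i, d i = ∏ i, if i ∈ A then (-1 : Fˣ) else 1 := Finset.prod_congr rfl fun i _ => by
      rcases hd i with h1 | h1 <;> simp [A, h1, hne.symm]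
    rw [this, Finset.prod_ite, Finset.prod_const, Finset.prod_const_one, mul_one,
      Finset.filter_mem_eq_inter, Finset.univ_inter, hodd.neg_one_pow] at hprod
    exact hne hprod
  convert mul_mem (hsign A hA) ((hperm π).1 hπ) using 1
  refine gl_ext fun x => funext fun i => ?_
  rw [ap_mon, ap_mul, OMon.ap_dg, OMon.ap_pm]
  rcases hd i with h1 | h1 <;> simp [A, h1, hne.symm]

omit hf in
/-- The stabiliser of a frame is maximal, whatever the parity of the dimension. -/
theorem frame_isMaximalIn_even [Finite F] {D : Fin t → Submodule F (ι → F)}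
    (h2 : (2 : F) ≠ 0) (hn : 5 ≤ Fintype.card ι) (ht : 10 ≤ t)
    (hs : ∀ a : F, ∃ k : ℕ, (k : F) = a)
    (hD : Cfsg.Geo.IsOrthogonalMDecomposition (⇑Q) 1 D) :
    Cfsg.Geo.IsMaximalIn (Cfsg.Geo.omegaGL (⇑Q))
      (Cfsg.Geo.decompositionStabilizer D ⊓ Cfsg.Geo.omegaGL (⇑Q)) := by
  classical
  obtain ⟨c, e, hf, hmem, hline⟩ := exists_frame h2 hD
  refine ⟨stab_lt_omega hf hn (by omega) hmem hline, fun M hHM hMS => ?_⟩
  by_cases hM : M ≤ Cfsg.Geo.decompositionStabilizer D
  · exact Or.inl (le_antisymm (le_inf hM hMS) hHM)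
  refine Or.inr (le_antisymm hMS ?_)
  have hMI : M ≤ Cfsg.isometryGroup F (⇑Q) := hMS.trans omegaGL_le
  have hO := over_of_le hf hn (by omega : 7 ≤ t) hs hD.decomp.decomp hmem hline hHM hMI
  obtain ⟨g, hgM, hg⟩ := SetLike.not_le_iff_exists.mp hM
  have hcard : Fintype.card ι = t := by simpa using decomp_card_eq hD.decomp.decomp
  let σ : ι ≃ Fin t := Fintype.equivFinOfCardEq hcard
  set T := hf.chart σ with hT
  have hgX : T⁻¹ * g * T ∈ hf.pull σ M := (hf.mem_pull σ).mpr (by
    rw [← hT, show T * (T⁻¹ * g * T) * T⁻¹ = g by group]; exact hgM)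
  have hgn : ¬ IsMon (T⁻¹ * g * T) := by
    rintro ⟨π, d, hπd⟩
    refine hg (mem_stab_of_lines hD.decomp.decomp hmem hline
      (π := σ.symm.trans (π.trans σ)) fun i => ⟨(d (π (σ.symm i)) : F), ?_⟩)
    rw [show g = T * mon π d * T⁻¹ by rw [← hπd]; group, ap_mul, ap_mul]
    conv_lhs => rw [show e i = ap T (Pi.single (σ.symm i) 1) by
      rw [hT, hf.chart_single, Equiv.apply_symm_apply]]
    rw [ap_inv_ap, ap_mon_single, mul_one, Equiv.trans_apply, Equiv.trans_apply,
      show (Pi.single (π (σ.symm i)) ((d (π (σ.symm i)) : F)) : ι → F) =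
        (d (π (σ.symm i)) : F) • Pi.single (π (σ.symm i)) 1 by
        rw [← Pi.single_smul, smul_eq_mul, mul_one],
      ap_smul, hT, hf.chart_single]
  obtain ⟨z, hzX, hzn, o, ho⟩ := OMon.exists_fix h2 (by omega) (hf.pull_le σ hMI)
    (monX_pull σ hO) hgX hgn
  set z' := T * z * T⁻¹
  have hzM : z' ∈ M := (hf.mem_pull σ).mp hzX
  have hap : ∀ j, ap z' (e (σ j)) = ap T (ap z (Pi.single j 1)) := fun j => by
    rw [show e (σ j) = ap T (Pi.single j 1) from (hf.chart_single σ j).symm, ap_mul, ap_mul,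
      ap_inv_ap]
  have ho' : ap z' (e (σ o)) = e (σ o) ∨ ap z' (e (σ o)) = -e (σ o) := by
    rw [hap]
    rcases ho with ho | ho
    · left; rw [ho, hT, hf.chart_single]
    · right; rw [ho, ← neg_one_smul F, ap_smul, neg_one_smul, hT, hf.chart_single]
  have hro : rf Q (ap z' (e (σ o))) = rf Q (e (σ o)) := by
    rcases ho' with h' | h' <;> rw [h']
    exact rf_neg _
  have hRo : Refl Q c e M (ap z' (e (σ o))) := by
    rcases ho' with h' | h' <;> rw [h']
    exacts [Refl.frame hO _, (Refl.frame hO _).neg]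
  have hkeep : ∀ x, Refl Q c e M x → Refl Q c e M (ap z' x) := fun x hx =>
    Refl.ap hO hzM (o := σ o) hRo hx
  obtain ⟨a, i, j, hij, hi, hj⟩ := exists_two_nonzero hzn
  refine omega_le_of_moved hO hn hkeep (a := σ a) (σ.injective.ne hij) ?_ ?_
  · rw [hap, hT, hf.co_chart, Equiv.symm_apply_apply]; exact hi
  · rw [hap, hT, hf.co_chart, Equiv.symm_apply_apply]; exact hj

end CfsgLib.Geometric.Orth.Frame
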