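import Cfsg.Agent.Lib.Geometric.Orth.Frame.Rules

/-!
A group that contains a reflection vector off the frame, in the sense of `Refl`, and an element
moving the frame contains `omegaGL`.
-/

namespace CfsgLib.Geometric.Orth.Frame

open Matrix QuadraticMap CfsgLib.ClassicalForms

variable {ι : Type} [Fintype ι] [DecidableEq ι] {F : Type*} [Field F] [Finite F]
variable {t : ℕ} {Q : QuadraticForm F (ι → F)} {c : F} {e : Fin t → ι → F}
variable {M : Subgroup (GL ι F)} (h : Over Q c e M) (hn : 5 ≤ Fintype.card ι)
include h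

omit [Finite F] in
/-- Two vectors with singular difference give a vector with a coordinate one. -/
lemma exists_unit {K : Finset (Fin t)} (hK : Close Q c e M K) :
    ∃ x l, Refl Q c e M x ∧ co Q c e l x = 1 ∧ x ≠ e l := by
  obtain ⟨v, w, hv, hw, hvw, hne, -⟩ := hK
  obtain ⟨hall, hin⟩ := inn_of_pair h hv hw hvw
  set u := w - v with hu
  obtain ⟨l, hl⟩ : ∃ l, co Q c e l u ≠ 0 := by
    by_contra! hall'
    exact hne (sub_eq_zero.1 (h.frame.ext fun k => by rw [hall', map_zero]))
  set s₁ := (1 - co Q c e l v) / co Q c e l u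
  set s₂ := (-1 - co Q c e l v) / co Q c e l u
  by_cases h1 : v + s₁ • u = e l
  · refine ⟨-(v + s₂ • u), l, (hall s₂).neg, by simp [map_add, map_smul, s₂, hl], fun h2 => ?_⟩
    have e0 : (2 : F) • e l = (s₁ - s₂) • u := by
      linear_combination (norm := module) -h1 - h2
    have := congrArg Q e0
    rw [QuadraticMap.map_smul, QuadraticMap.map_smul, h.frame.value, hin.1, smul_zero,
      smul_eq_mul] at this
    exact mul_ne_zero (mul_ne_zero h.frame.two h.frame.two) h.frame.ne_zero this
  · exact ⟨_, l, hall s₁, by simp [map_add, map_smul, s₁, hl], h1⟩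

include hn

/-- Three non-zero coordinates give everything. -/
theorem omega_le_of_three {v : ι → F} (hv : Refl Q c e M v) (hw : 3 ≤ (supp Q c e v).card) :
    Cfsg.Geo.omegaGL (⇑Q) ≤ M := by
  classical
  by_contra hΩ
  have hf := h.frame
  have h2 := hf.two
  obtain ⟨K, -, hK⟩ := exists_close h hn hΩ hv hw
  obtain ⟨x, l, hx, hl, hne⟩ := exists_unit h hK
  have hpol : polar Q (e l) x = 2 * c := by rw [polar_comm, hf.polar_e, hl, mul_one]
  obtain ⟨hall, hin⟩ := inn_of_pair h (Refl.frame h l) hx hpol
  set u := x - e l with hu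
  have hul : co Q c e l u = 0 := by rw [hu, map_sub, hl, hf.co_e, if_pos rfl, sub_self]
  set U := supp Q c e u
  have hUmem : ∀ k, k ∈ U ↔ co Q c e k u ≠ 0 := fun k => mem_supp
  by_cases hsmall : U.card ≤ 2
  · have hout : ∀ k, k ∉ insert l U → co Q c e k x = 0 := fun k hk => by
      simp only [Finset.mem_insert, not_or] at hk
      have h0 : co Q c e k u = 0 := by_contra fun h' => hk.2 ((hUmem k).2 h')
      rwa [hu, map_sub, hf.co_e, if_neg hk.1, sub_zero] at h0
    obtain ⟨w, hw'⟩ := short_of_unit h hx hl hne hout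
      ((Finset.card_insert_le _ _).trans (by omega))
    exact hΩ (omega_le_of_short h hn hw')
  have hQu : Q u = 0 := hin.1
  have hsq : ∑ k, co Q c e k u * co Q c e k u = 0 := by
    have := hf.value_eq u
    rw [hQu] at this
    exact (mul_eq_zero.1 this.symm).resolve_left hf.ne_zero
  -- the vector with small support
  have hvec : ∀ T : Finset (Fin t), T ⊆ U → ∀ s : F, s ≠ 0 →
      1 + 4 * (s * s) * (∑ k ∈ T, co Q c e k u * co Q c e k u) ≠ 0 → ∃ z, Refl Q c e M z ∧
        ∀ k, co Q c e k z =
          if k = l then 1 - 2 / (1 + 4 * (s * s) * ∑ k ∈ T, co Q c e k u * co Q c e k u)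
          else if k ∈ T then -(2 * (2 / (1 + 4 * (s * s) * ∑ k ∈ T, co Q c e k u * co Q c e k u)) *
            s * co Q c e k u) else 0 := by
    intro T hTU s _ hτ
    set S := ∑ k ∈ T, co Q c e k u * co Q c e k u
    set κ := 2 / (1 + 4 * (s * s) * S) with hκ
    have hκ' : κ * (1 + 4 * (s * s) * S) = 2 := div_mul_cancel₀ _ hτ
    have hlT : l ∉ T := fun h' => (hUmem l).1 (hTU h') hul
    obtain ⟨y, hy, hyco⟩ := hx.flip h T
    have hyl : polar Q (e l) y = 2 * c := by
      rw [polar_comm, hf.polar_e, hyco, if_neg hlT, hl, mul_one]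
    obtain ⟨hall', -⟩ := inn_of_pair h (Refl.frame h l) hy hyl
    have hX := hall s
    have hW := hall' (κ * s)
    have hcoX : ∀ k, co Q c e k (e l + s • u) =
        if k = l then 1 else s * co Q c e k u := fun k => by
      by_cases hk : k = l
      · subst hk; simp [map_add, map_smul, hf.co_e, hul]
      · simp [map_add, map_smul, hf.co_e, hk]
    have hcoW : ∀ k, co Q c e k (e l + (κ * s) • (y - e l)) = if k = l then 1 else
        if k ∈ T then -(κ * s * co Q c e k u) else κ * s * co Q c e k u := fun k => by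
      by_cases hk : k = l
      · subst hk; simp [map_add, map_smul, map_sub, hf.co_e, hyco, if_neg hlT, hl]
      · rw [if_neg hk, map_add, map_smul, map_sub, hyco, hf.co_e, if_neg hk, hu, map_sub,
          hf.co_e, if_neg hk]
        split_ifs <;> simp [hl]
    refine ⟨_, hW.reflect h hX, fun k => ?_⟩
    have hp : polar Q (e l + (κ * s) • (y - e l)) (e l + s • u) =
        2 * c * (1 - 2 * κ * (s * s) * S) := by
      rw [hf.polar_eq]
      congr 1
      rw [Finset.sum_congr rfl (g := fun k => (if k = l then 1 else 0) +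
        (κ * s * s) * (co Q c e k u * co Q c e k u) -
        2 * (κ * s * s) * (if k ∈ T then co Q c e k u * co Q c e k u else 0)) (fun k _ => by
          rw [hcoX, hcoW]
          by_cases hk : k = l
          · subst hk; simp [hul, hlT]
          · simp only [if_neg hk]
            split_ifs <;> ring)]
      simp only [Finset.sum_sub_distrib, Finset.sum_add_distrib, ← Finset.mul_sum, hsq,
        Finset.sum_ite_eq', Finset.mem_univ, if_true, Finset.sum_ite_mem, Finset.univ_inter]
      ring
    have hc := hf.ne_zero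
    rw [ap_rf, hp, hX.1, map_sub, map_smul, smul_eq_mul, hcoX, hcoW]
    by_cases hk : k = l
    · simp only [if_pos hk]
      field_simp
      linear_combination hκ'
    · simp only [if_neg hk]
      split_ifs
      · field_simp
        linear_combination (co Q c e k u) * hκ'
      · field_simp
        linear_combination (s * co Q c e k u) * hκ'
  have h4 : (4 : F) ≠ 0 := by rw [show (4 : F) = 2 * 2 by norm_num]; exact mul_ne_zero h2 h2
  by_cases h3 : (3 : F) = 0
  · obtain ⟨T, hTU, hTc⟩ := Finset.exists_subset_card_eq (s := U) (n := 3) (by omega)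
    have hS : ∑ k ∈ T, co Q c e k u * co Q c e k u = 0 := by
      rw [Finset.sum_congr rfl (fun k hk => sq_eq_one_of_three h h3 ((hUmem k).1 (hTU hk))),
        Finset.sum_const, hTc, nsmul_one]
      exact_mod_cast h3
    obtain ⟨z, hz, hzco⟩ := hvec T hTU 1 one_ne_zero (by rw [hS]; simp)
    rw [hS] at hzco
    obtain ⟨k, hk⟩ := Finset.card_pos.1 (by omega : 0 < T.card)
    have hkl : k ≠ l := fun e' => (hUmem l).1 (hTU (e' ▸ hk)) hul
    have hne' : -z ≠ e l := fun e' => by
      have := congrArg (co Q c e k) e'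
      rw [map_neg, hzco, if_neg hkl, if_pos hk, hf.co_e, if_neg hkl] at this
      refine (hUmem k).1 (hTU hk) ?_
      norm_num at this
      exact this.resolve_left h4
    have hout : ∀ m, m ∉ insert l T → co Q c e m (-z) = 0 := fun m hm => by
      simp only [Finset.mem_insert, not_or] at hm
      rw [map_neg, hzco, if_neg hm.1, if_neg hm.2, neg_zero]
    obtain ⟨w, hw'⟩ := short_of_unit h hz.neg (l := l) (by rw [map_neg, hzco]; norm_num) hne' hout
      ((Finset.card_insert_le _ _).trans (by omega))
    exact hΩ (omega_le_of_short h hn hw')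
  obtain ⟨T, hTU, hTc⟩ := Finset.exists_subset_card_eq (s := U) (n := 2) (by omega)
  set S := ∑ k ∈ T, co Q c e k u * co Q c e k u with hS
  obtain ⟨s, hs0, hs1, hs2⟩ : ∃ s : F, s ≠ 0 ∧ 1 + 4 * (s * s) * S ≠ 0 ∧
      1 + 4 * (s * s) * S ≠ 2 := by
    by_cases h5 : (5 : F) = 0
    · have hsq5 : ∀ k ∈ T, co Q c e k u * co Q c e k u = 1 ∨
          co Q c e k u * co Q c e k u = -1 := fun k hk => by
        rcases allowed_small h (Or.inr (Or.inl h5)) ((hUmem k).1 (hTU hk)) with q | q | q | q
        · exact Or.inl q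
        · exact Or.inr (by linear_combination (co Q c e k u * co Q c e k u) * h5 - q)
        · exfalso
          obtain ⟨n, hnk⟩ := h.surj (co Q c e k u)
          rw [← hnk] at q
          have e1 : (n : F) = ((n % 5 : ℕ) : F) := by
            conv_lhs => rw [← Nat.mod_add_div n 5]
            rw [Nat.cast_add, Nat.cast_mul, Nat.cast_ofNat, h5, zero_mul, add_zero]
          rw [e1] at q
          have hlt : n % 5 < 5 := Nat.mod_lt _ (by norm_num)
          interval_cases n % 5 <;> push_cast at q
          · exact one_ne_zero (α := F) (by linear_combination -q)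
          · exact one_ne_zero (α := F) (by linear_combination q)
          · exact h2 (by linear_combination q - h5)
          · exact h2 (by linear_combination q - 3 * h5)
          · exact one_ne_zero (α := F) (by linear_combination q - 6 * h5)
        · left
          have e0 : (co Q c e k u * co Q c e k u - 1) * (co Q c e k u * co Q c e k u - 1) = 0 := by
            linear_combination q - (3 * (co Q c e k u * co Q c e k u) *
              (co Q c e k u * co Q c e k u) - 2 * (co Q c e k u * co Q c e k u)) * h5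
          exact sub_eq_zero.1 (mul_self_eq_zero.1 e0)
      obtain ⟨a, b, hab, hT⟩ := Finset.card_eq_two.1 hTc
      rw [hT, Finset.sum_pair hab] at hS
      have ha := hsq5 a (by rw [hT]; simp)
      have hb := hsq5 b (by rw [hT]; simp)
      refine ⟨1, one_ne_zero, ?_, ?_⟩ <;>
        rcases ha with ha | ha <;> rcases hb with hb | hb <;> rw [hS, ha, hb] <;> intro h'
      all_goals first
        | exact one_ne_zero (α := F) (by linear_combination h')
        | exact one_ne_zero (α := F) (by linear_combination -h')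
        | exact h4 (by linear_combination h' - h5)
        | exact h2 (by linear_combination h' - h5)
        | exact h2 (by linear_combination -h' - h5)
        | exact h4 (by linear_combination -h' - h5)
    · by_cases hA : 1 + 4 * S = 0 ∨ 4 * S = 1
      · refine ⟨2, h2, fun h' => ?_, fun h' => ?_⟩
        · rcases hA with hA | hA
          · exact h3 (by linear_combination -h' + 4 * hA)
          · exact h5 (by linear_combination h' - 4 * hA)
        · rcases hA with hA | hA
          · exact h5 (by linear_combination -h' + 4 * hA)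
          · exact h3 (by linear_combination h' - 4 * hA)
      · push Not at hA
        exact ⟨1, one_ne_zero, fun h' => hA.1 (by linear_combination h'),
          fun h' => hA.2 (by linear_combination h')⟩
  obtain ⟨z, hz, hzco⟩ := hvec T hTU s hs0 hs1
  have hκ : (2 : F) / (1 + 4 * (s * s) * S) ≠ 0 := div_ne_zero h2 hs1
  have hκ1 : 1 - 2 / (1 + 4 * (s * s) * S) ≠ 0 := fun h' =>
    hs2 ((div_eq_one_iff_eq hs1).1 (sub_eq_zero.1 h').symm).symm
  have hlT : l ∉ T := fun h' => (hUmem l).1 (hTU h') hul
  have hsupp : supp Q c e z = insert l T := by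
    ext k
    rw [mem_supp, hzco, Finset.mem_insert]
    by_cases hk : k = l
    · simp [hk, ← hS, hκ1]
    · by_cases hkT : k ∈ T
      · simp [hk, hkT, h2, hs0, hs1, ← hS, (hUmem k).1 (hTU hkT)]
      · simp [hk, hkT]
  have hcard : (supp Q c e z).card = 3 := by rw [hsupp, Finset.card_insert_of_notMem hlT, hTc]
  obtain ⟨K', hK', hclose⟩ := exists_close h hn hΩ hz (by omega)
  obtain ⟨w, hw'⟩ := short_of_close h hclose (by omega)
  exact hΩ (omega_le_of_short h hn hw')

/-- A reflection vector on two coordinates of different values gives everything. -/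
lemma omega_le_of_two {v : ι → F} (hv : Refl Q c e M v) {i j : Fin t} (hij : i ≠ j)
    (hi : co Q c e i v ≠ 0) (hj : co Q c e j v ≠ 0) (hne : 2 * (co Q c e i v * co Q c e i v) ≠ 1) :
    Cfsg.Geo.omegaGL (⇑Q) ≤ M := by
  classical
  by_cases hbig : 3 ≤ (supp Q c e v).card
  · exact omega_le_of_three h hn hv hbig
  have hzero : ∀ k, k ≠ i → k ≠ j → co Q c e k v = 0 := fun k hki hkj => by
    by_contra hk
    refine hbig ?_
    calc 3 = ({i, j, k} : Finset (Fin t)).card :=
          (Finset.card_eq_three.2 ⟨i, j, k, hij, Ne.symm hki, Ne.symm hkj, rfl⟩).symm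
      _ ≤ _ := Finset.card_le_card fun r hr => by
          simp only [Finset.mem_insert, Finset.mem_singleton] at hr
          rw [mem_supp]
          rcases hr with rfl | rfl | rfl <;> assumption
  obtain ⟨k, hk⟩ := exists_outside h ({i, j} : Finset (Fin t))
    (lt_of_le_of_lt Finset.card_le_two (by norm_num))
  simp only [Finset.mem_insert, Finset.mem_singleton, not_or] at hk
  obtain ⟨o, ho⟩ := exists_outside h ({i, j, k} : Finset (Fin t))
    (lt_of_le_of_lt Finset.card_le_three (by norm_num))
  obtain ⟨o', ho'⟩ := exists_outside h ({i, j, k, o} : Finset (Fin t))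
    (lt_of_le_of_lt Finset.card_le_four (by norm_num))
  simp only [Finset.mem_insert, Finset.mem_singleton, not_or] at ho ho'
  have hoo : o ≠ o' := Ne.symm ho'.2.2.2
  obtain ⟨y, hy, hyco⟩ := hv.swap_pair h (Ne.symm hk.2) hoo
  have hyi : co Q c e i y = co Q c e i v := by
    rw [hyco, Equiv.swap_apply_of_ne_of_ne hij (Ne.symm hk.1),
      Equiv.swap_apply_of_ne_of_ne (Ne.symm ho.1) (Ne.symm ho'.1)]
  have hyj : co Q c e j y = 0 := by
    rw [hyco, Equiv.swap_apply_left, Equiv.swap_apply_of_ne_of_ne (Ne.symm ho.2.2)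
      (Ne.symm ho'.2.2.1)]
    exact hzero k hk.1 hk.2
  have hyk : co Q c e k y = co Q c e j v := by
    rw [hyco, Equiv.swap_apply_right, Equiv.swap_apply_of_ne_of_ne (Ne.symm ho.2.1)
      (Ne.symm ho'.2.1)]
  have hp : polar Q y v = 2 * c * (co Q c e i v * co Q c e i v) := by
    rw [h.frame.polar_eq, Finset.sum_eq_single i (fun r _ hr => ?_) (by simp), hyi]
    by_cases hrj : r = j
    · rw [hrj, hyj, zero_mul]
    · rw [hzero r hr hrj, mul_zero]
  have hco : ∀ r, co Q c e r (ap (rf Q v) y) =
      co Q c e r y - 2 * (co Q c e i v * co Q c e i v) * co Q c e r v := fun r => by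
    rw [ap_rf, map_sub, map_smul, hv.1, hp, smul_eq_mul]
    have := h.frame.ne_zero
    field_simp
  refine omega_le_of_three h hn (hy.reflect h hv) ?_
  calc 3 = ({i, j, k} : Finset (Fin t)).card :=
        (Finset.card_eq_three.2 ⟨i, j, k, hij, Ne.symm hk.1, Ne.symm hk.2, rfl⟩).symm
    _ ≤ _ := Finset.card_le_card fun r hr => by
        simp only [Finset.mem_insert, Finset.mem_singleton] at hr
        rw [mem_supp, hco]
        rcases hr with rfl | rfl | rfl
        · rw [hyi]
          intro h'
          have e0 : co Q c e r v * (1 - 2 * (co Q c e r v * co Q c e r v)) = 0 := by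
            linear_combination h'
          exact hne (sub_eq_zero.1 ((mul_eq_zero.1 e0).resolve_left hi)).symm
        · rw [hyj, zero_sub, neg_ne_zero]
          exact mul_ne_zero (mul_ne_zero h.frame.two (mul_ne_zero hi hi)) hj
        · rw [hyk, hzero r hk.1 hk.2, mul_zero, sub_zero]
          exact hj

/-- An element preserving the reflection vectors and moving a frame line gives everything. -/
theorem omega_le_of_moved {g : GL ι F} (hg : ∀ x, Refl Q c e M x → Refl Q c e M (ap g x))
    {a i j : Fin t} (hij : i ≠ j) (hi : co Q c e i (ap g (e a)) ≠ 0)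
    (hj : co Q c e j (ap g (e a)) ≠ 0) : Cfsg.Geo.omegaGL (⇑Q) ≤ M := by
  classical
  have hf := h.frame
  by_contra hΩ
  have hfa : ∀ b, Refl Q c e M (ap g (e b)) := fun b => hg _ (Refl.frame h b)
  have hle : ∀ x, Refl Q c e M x → ∀ p q r : Fin t, p ≠ q → p ≠ r → q ≠ r →
      co Q c e p x ≠ 0 → co Q c e q x ≠ 0 → co Q c e r x ≠ 0 → False := by
    intro x hx p q r hpq hpr hqr hp hq hr
    refine hΩ (omega_le_of_three h hn hx ?_)
    calc 3 = ({p, q, r} : Finset (Fin t)).card :=
          (Finset.card_eq_three.2 ⟨p, q, r, hpq, hpr, hqr, rfl⟩).symm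
      _ ≤ _ := Finset.card_le_card fun m hm => by
          simp only [Finset.mem_insert, Finset.mem_singleton] at hm
          rw [mem_supp]
          rcases hm with rfl | rfl | rfl <;> assumption
  set w := ap g (e a)
  set α := co Q c e i w
  set β := co Q c e j w
  -- a vector with the same coordinates on any two indices
  have hzero : ∀ k, k ≠ i → k ≠ j → co Q c e k w = 0 := fun k hki hkj =>
    by_contra fun hk => hle w (hfa a) i j k hij (Ne.symm hki) (Ne.symm hkj) hi hj hk
  have hmove : ∀ (x : ι → F) (p q r : Fin t) (A B : F), Refl Q c e M x → p ≠ q → r ≠ p → r ≠ q →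
      (∀ k, co Q c e k x = if k = p then A else if k = q then B else 0) →
      ∃ y, Refl Q c e M y ∧ ∀ k, co Q c e k y = if k = p then A else if k = r then B else 0 := by
    intro x p q r A B hx hpq hrp hrq hxco
    obtain ⟨o, ho⟩ := exists_outside h ({p, q, r} : Finset (Fin t))
      (lt_of_le_of_lt Finset.card_le_three (by norm_num))
    obtain ⟨o', ho'⟩ := exists_outside h ({p, q, r, o} : Finset (Fin t))
      (lt_of_le_of_lt Finset.card_le_four (by norm_num))
    simp only [Finset.mem_insert, Finset.mem_singleton, not_or] at ho ho'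
    obtain ⟨y, hy, hyco⟩ := hx.swap_pair h (Ne.symm hrq) (Ne.symm ho'.2.2.2)
    refine ⟨y, hy, fun k => ?_⟩
    rw [hyco, hxco]
    by_cases hkp : k = p
    · subst hkp
      rw [Equiv.swap_apply_of_ne_of_ne hpq (Ne.symm hrp),
        Equiv.swap_apply_of_ne_of_ne (Ne.symm ho.1) (Ne.symm ho'.1)]
      simp
    by_cases hkr : k = r
    · subst hkr
      rw [Equiv.swap_apply_right,
        Equiv.swap_apply_of_ne_of_ne (Ne.symm ho.2.1) (Ne.symm ho'.2.1)]
      simp [hrp, hpq.symm]
    by_cases hkq : k = q
    · subst hkq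
      rw [Equiv.swap_apply_left,
        Equiv.swap_apply_of_ne_of_ne (Ne.symm ho.2.2) (Ne.symm ho'.2.2.1)]
      simp [hkp, hkr, hrp, hrq]
    rw [Equiv.swap_apply_of_ne_of_ne hkq hkr]
    by_cases hko : k = o
    · subst hko; rw [Equiv.swap_apply_left]; simp [ho'.1, ho'.2.1, hkp, hkr]
    by_cases hko' : k = o'
    · subst hko'; rw [Equiv.swap_apply_right]; simp [ho.1, ho.2.1, hkp, hkr]
    rw [Equiv.swap_apply_of_ne_of_ne hko hko']
    simp [hkp, hkr, hkq]
  have hw0 : ∀ k, co Q c e k w = if k = i then α else if k = j then β else 0 := fun k => by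
    by_cases hki : k = i
    · subst hki; simp [α]
    by_cases hkj : k = j
    · subst hkj; simp [hki, β]
    simp [hki, hkj, hzero k hki hkj]
  have hany : ∀ p q : Fin t, p ≠ q → ∃ y A B, Refl Q c e M y ∧ A ≠ 0 ∧ B ≠ 0 ∧
      ∀ k, co Q c e k y = if k = p then A else if k = q then B else 0 := by
    intro p q hpq
    have hstep : ∀ (x : ι → F) (p₀ q₀ : Fin t) (A B : F), Refl Q c e M x → p₀ ≠ q₀ → A ≠ 0 →
        B ≠ 0 → (∀ k, co Q c e k x = if k = p₀ then A else if k = q₀ then B else 0) →
        p = p₀ → ∃ y A B, Refl Q c e M y ∧ A ≠ 0 ∧ B ≠ 0 ∧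
          ∀ k, co Q c e k y = if k = p then A else if k = q then B else 0 := by
      rintro x p₀ q₀ A B hx hpq₀ hA hB hxco rfl
      by_cases hq : q = q₀
      · subst hq; exact ⟨x, A, B, hx, hA, hB, hxco⟩
      · obtain ⟨y, hy, hyco⟩ := hmove x p q₀ q A B hx hpq₀ hpq.symm hq hxco
        exact ⟨y, A, B, hy, hA, hB, hyco⟩
    have hcomm : ∀ {x : ι → F} {p₀ q₀ : Fin t} {A B : F}, p₀ ≠ q₀ →
        (∀ k, co Q c e k x = if k = p₀ then A else if k = q₀ then B else 0) →
        ∀ k, co Q c e k x = if k = q₀ then B else if k = p₀ then A else 0 := fun hne hx k => by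
      rw [hx]; split_ifs with h1 h2 <;> first | rfl | exact absurd (h1.symm.trans h2) hne
    by_cases hpi : p = i
    · exact hstep w i j α β (hfa a) hij hi hj hw0 hpi
    by_cases hpj : p = j
    · exact hstep w j i β α (hfa a) hij.symm hj hi (hcomm hij hw0) hpj
    obtain ⟨y, hy, hyco⟩ := hmove w i j p α β (hfa a) hij hpi hpj hw0
    exact hstep y p i β α hy hpi hj hi (hcomm (Ne.symm hpi) hyco) rfl
  -- another column
  obtain ⟨b, k, hki, hkj, hbk⟩ : ∃ b k, k ≠ i ∧ k ≠ j ∧ co Q c e k (ap g (e b)) ≠ 0 := by
    by_contra! hall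
    obtain ⟨k, hk⟩ := exists_outside h ({i, j} : Finset (Fin t))
      (lt_of_le_of_lt Finset.card_le_two (by norm_num))
    simp only [Finset.mem_insert, Finset.mem_singleton, not_or] at hk
    have e1 : ap g (ap g⁻¹ (e k)) = e k := ap_ap_inv g _
    rw [← hf.rep (ap g⁻¹ (e k)),
      show ap g (∑ m, co Q c e m (ap g⁻¹ (e k)) • e m) =
        ∑ m, co Q c e m (ap g⁻¹ (e k)) • ap g (e m) by
        rw [show ap g (∑ m, co Q c e m (ap g⁻¹ (e k)) • e m) =
          ∑ m, ap g (co Q c e m (ap g⁻¹ (e k)) • e m) from map_sum (apEquiv g) _ _]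
        exact Finset.sum_congr rfl fun m _ => ap_smul g _ _] at e1
    have := congrArg (co Q c e k) e1
    simp [map_sum, map_smul, hall _ k hk.1 hk.2, hf.co_e] at this
  have hab : a ≠ b := fun e' => by subst e'; exact hbk (hzero k hki hkj)
  obtain ⟨y, A, B, hy, hA, hB, hyco⟩ := hany a b hab
  have hyeq : y = A • e a + B • e b := hf.ext fun m => by
    rw [hyco]
    by_cases hma : m = a
    · subst hma; simp [map_add, map_smul, hf.co_e, hab]
    by_cases hmb : m = b
    · subst hmb; simp [map_add, map_smul, hf.co_e, hma]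
    simp [map_add, map_smul, hf.co_e, hma, hmb]
  have hy' : Refl Q c e M (A • e a + (-B) • e b) := by
    have h1 := hy.reflect h (Refl.frame h b)
    convert h1 using 1
    rw [hyeq, ap_add, ap_smul, ap_smul, ap_rf_fix (hf.orth a b hab), ap_rf, hf.value,
      polar_self_mul, hf.value]
    have := hf.ne_zero
    match_scalars <;> field_simp <;> ring
  have himg : ∀ B', Refl Q c e M (A • e a + B' • e b) →
      B' ≠ 0 → (A * α + B' * co Q c e i (ap g (e b)) = 0 ∨
        A * β + B' * co Q c e j (ap g (e b)) = 0) := by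
    intro B' hR hB'
    by_contra! hne
    refine hle _ (hg _ hR) i j k hij (Ne.symm hki) (Ne.symm hkj) ?_ ?_ ?_
    · simpa [ap_add, ap_smul, map_add, map_smul] using hne.1
    · simpa [ap_add, ap_smul, map_add, map_smul] using hne.2
    · simp [ap_add, ap_smul, map_add, map_smul, hzero k hki hkj, hB', hbk, w] at *
  have hone : co Q c e i (ap g (e b)) = 0 ∨ co Q c e j (ap g (e b)) = 0 := by
    by_contra! hboth
    exact hle _ (hfa b) i j k hij (Ne.symm hki) (Ne.symm hkj) hboth.1 hboth.2 hbk
  have hyR : Refl Q c e M (A • e a + B • e b) := hyeq ▸ hy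
  rcases hone with h0 | h0
  · have e1 := himg B hyR hB
    have e2 := himg (-B) hy' (neg_ne_zero.2 hB)
    rw [h0, mul_zero, add_zero, or_iff_right (mul_ne_zero hA hi)] at e1
    rw [h0, mul_zero, add_zero, or_iff_right (mul_ne_zero hA hi)] at e2
    exact mul_ne_zero hf.two (mul_ne_zero hA hj) (by linear_combination e1 + e2)
  · have e1 := himg B hyR hB
    have e2 := himg (-B) hy' (neg_ne_zero.2 hB)
    rw [h0, mul_zero, add_zero, or_iff_left (mul_ne_zero hA hj)] at e1
    rw [h0, mul_zero, add_zero, or_iff_left (mul_ne_zero hA hj)] at e2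
    exact mul_ne_zero hf.two (mul_ne_zero hA hi) (by linear_combination e1 + e2)

end CfsgLib.Geometric.Orth.Frame
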