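import Cfsg.Agent.Lib.Geometric.Orth.Frame.Main

/-!
The stabiliser of an orthogonal frame of equal values is maximal in `omegaGL` in odd dimension
over a prime field.
-/

namespace CfsgLib.Geometric.Orth.Frame

open Matrix QuadraticMap CfsgLib.ClassicalForms

variable {ι : Type} [Fintype ι] [DecidableEq ι] {F : Type*} [Field F]
variable {Q : QuadraticForm F (ι → F)} {t : ℕ} {D : Fin t → Submodule F (ι → F)}

/-- A decomposition into isometric lines has a frame of equal values. -/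
lemma exists_frame (h2 : (2 : F) ≠ 0) (hD : Cfsg.Geo.IsOrthogonalMDecomposition (⇑Q) 1 D) :
    ∃ (c : F) (e : Fin t → ι → F), IsFrame Q c e ∧ (∀ i, e i ∈ D i) ∧
      ∀ i x, x ∈ D i → ∃ κ : F, x = κ • e i := by
  classical
  have ht := hD.decomp.decomp.two_le
  let o : Fin t := ⟨0, by omega⟩
  obtain ⟨e₀, he₀, he₀0⟩ := Decomp.exists_ne_zero_mem hD.decomp.decomp o
  have hiso : ∀ i, ∃ φ : D o ≃ₗ[F] D i, ∀ x, Q (φ x : ι → F) = Q (x : ι → F) :=
    fun i => hD.isometric o i
  choose φ hφ using hiso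
  set e : Fin t → ι → F := fun i => (φ i ⟨e₀, he₀⟩ : ι → F)
  have hmem : ∀ i, e i ∈ D i := fun i => (φ i ⟨e₀, he₀⟩).2
  have he0 : ∀ i, e i ≠ 0 := fun i h0 => he₀0 (by
    have := (φ i).injective (a₁ := ⟨e₀, he₀⟩) (a₂ := 0) (by rw [map_zero]; exact Subtype.ext h0)
    exact congrArg Subtype.val this)
  have hline : ∀ i x, x ∈ D i → ∃ κ : F, x = κ • e i := fun i x hx => by
    obtain ⟨κ, hκ⟩ := exists_smul_eq_of_finrank_eq_one (hD.decomp.decomp.finrank_eq i)
      (show (⟨e i, hmem i⟩ : D i) ≠ 0 from fun h0 => he0 i (congrArg Subtype.val h0)) ⟨x, hx⟩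
    exact ⟨κ, (congrArg Subtype.val hκ).symm⟩
  have hval : ∀ i, Q (e i) = Q e₀ := fun i => hφ i _
  have hc : Q e₀ ≠ 0 := fun h0 => by
    obtain ⟨y, hy, hey⟩ := (hD.decomp.nondegenerate o e₀ he₀ he₀0).2
    obtain ⟨κ, rfl⟩ := hline o y hy
    obtain ⟨κ', hκ'⟩ := hline o e₀ he₀
    refine hey ?_
    have hee : polar Q (e o) (e o) = 0 := by rw [polar_self_mul, hval, h0, mul_zero]
    rw [hκ', polar_smul_left, polar_smul_right, hee, smul_zero, smul_zero]
  refine ⟨Q e₀, e, ⟨h2, hc, hval, fun i j hij => orth_apply_blocks hD hij (hmem i) (hmem j),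
    fun x => ?_⟩, hmem, hline⟩
  conv_rhs => rw [← Decomp.sum_comp hD.decomp.decomp x]
  refine Finset.sum_congr rfl fun i _ => ?_
  obtain ⟨κ, hκ⟩ := hline i _ (Decomp.comp_mem hD.decomp.decomp i x)
  rw [hκ, co_apply, polar_comp hD x (hmem i), hκ, polar_smul_left, polar_self_mul, hval,
    smul_eq_mul, mul_left_comm, inv_mul_cancel₀ (mul_ne_zero h2 hc), mul_one]

variable {c : F} {e : Fin t → ι → F}

/-- Mapping every frame vector into a line gives a stabilising element. -/
lemma mem_stab_of_lines (hD : Cfsg.Geo.IsMDecomposition 1 D) (hmem : ∀ i, e i ∈ D i)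
    (hline : ∀ i x, x ∈ D i → ∃ κ : F, x = κ • e i) {g : GL ι F} {π : Equiv.Perm (Fin t)}
    (h : ∀ i, ∃ κ : F, ap g (e i) = κ • e (π i)) : g ∈ Cfsg.Geo.decompositionStabilizer D := by
  refine mem_decompStab hD (π := π) fun i x hx => ?_
  obtain ⟨κ, rfl⟩ := hline i x hx
  obtain ⟨κ', hκ'⟩ := h i
  rw [ap_smul, hκ', smul_smul]
  exact (D (π i)).smul_mem _ (hmem _)

variable [Finite F]

/-- The elements used for `Over` lie in the stabiliser in `omegaGL`. -/
lemma over_of_le (hf : IsFrame Q c e) (hn : 5 ≤ Fintype.card ι) (ht : 7 ≤ t)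
    (hs : ∀ a : F, ∃ k : ℕ, (k : F) = a) (hD : Cfsg.Geo.IsMDecomposition 1 D)
    (hmem : ∀ i, e i ∈ D i) (hline : ∀ i x, x ∈ D i → ∃ κ : F, x = κ • e i)
    {M : Subgroup (GL ι F)}
    (hHM : Cfsg.Geo.decompositionStabilizer D ⊓ Cfsg.Geo.omegaGL (⇑Q) ≤ M)
    (hMI : M ≤ Cfsg.isometryGroup F (⇑Q)) : Over Q c e M := by
  refine ⟨hf, hMI, fun i j => hHM ⟨?_, rf_mul_rf_mem hf.nondeg hn
    (by rw [hf.value]; exact hf.ne_zero) (by rw [hf.value, hf.value])⟩,
    fun a b a' b' hab ha'b' => hHM ⟨?_, ?_⟩, hs, ht⟩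
  · refine mem_stab_of_lines hD hmem hline (π := 1) fun k => ?_
    refine ⟨(if k = i then -1 else 1) * (if k = j then -1 else 1), hf.ext fun r => ?_⟩
    rw [ap_mul, hf.co_rf_e, hf.co_rf_e, map_smul, smul_eq_mul, Equiv.Perm.one_apply, hf.co_e]
    by_cases hrk : r = k
    · subst hrk; split_ifs <;> ring
    · simp [hrk]
  · refine mem_stab_of_lines hD hmem hline
      (π := (Equiv.swap a' b').trans (Equiv.swap a b)) fun k => ⟨1, hf.ext fun r => ?_⟩
    rw [ap_mul, hf.co_rf_swap hab, hf.co_rf_swap ha'b', one_smul, Equiv.trans_apply, hf.co_e,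
      hf.co_e]
    refine if_congr ?_ rfl rfl
    constructor
    · intro e'; rw [← e']; simp
    · intro e'; rw [e']; simp
  · have hQ : ∀ x y, x ≠ y → Q (e x - e y) = 2 * c := fun x y hxy => by
      rw [map_sub_eq, hf.value, hf.value, hf.orth x y hxy]; ring
    exact rf_mul_rf_mem hf.nondeg hn (by rw [hQ a b hab]; exact hf.two_c)
      (by rw [hQ a b hab, hQ a' b' ha'b'])

omit [Finite F] in
/-- An element of the stabiliser in `omegaGL` negating a given even set of frame vectors. -/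
lemma exists_negation {M : Subgroup (GL ι F)} (h : Over Q c e M) (s : Finset (Fin t))
    (hs : Even s.card) :
    ∃ g ∈ M, ∀ k x, co Q c e k (ap g x) = if k ∈ s then -co Q c e k x else co Q c e k x := by
  induction s using Finset.strongInduction with
  | H s ih =>
    by_cases h0 : s = ∅
    · exact ⟨1, one_mem M, fun k x => by simp [h0]⟩
    obtain ⟨a, ha⟩ := Finset.nonempty_iff_ne_empty.2 h0
    obtain ⟨b, hb, hba⟩ := Finset.exists_mem_ne (by
      rcases hs with ⟨r, hr⟩
      have := Finset.card_pos.2 ⟨a, ha⟩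
      omega : 1 < s.card) a
    have hsub : (s.erase a).erase b ⊂ s :=
      lt_of_le_of_lt (Finset.erase_subset _ _) (Finset.erase_ssubset ha)
    obtain ⟨g, hg, hgco⟩ := ih _ hsub (by
      rw [Finset.card_erase_of_mem (Finset.mem_erase.2 ⟨hba, hb⟩), Finset.card_erase_of_mem ha]
      rcases hs with ⟨r, hr⟩
      exact ⟨r - 1, by omega⟩)
    refine ⟨rf Q (e a) * rf Q (e b) * g, mul_mem (h.sign a b) hg, fun k x => ?_⟩
    rw [ap_mul, ap_mul, h.frame.co_rf_e, h.frame.co_rf_e, hgco]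
    by_cases hka : k = a
    · subst hka; simp [ha, Ne.symm hba]
    by_cases hkb : k = b
    · subst hkb; simp [hb, hka]
    simp [hka, hkb]

/-- Some element of `omegaGL` does not permute the lines of the frame. -/
lemma stab_lt_omega (hf : IsFrame Q c e) (hn : 5 ≤ Fintype.card ι) (ht : 4 ≤ t)
    (hmem : ∀ i, e i ∈ D i) (hline : ∀ i x, x ∈ D i → ∃ κ : F, x = κ • e i) :
    Cfsg.Geo.decompositionStabilizer D ⊓ Cfsg.Geo.omegaGL (⇑Q) < Cfsg.Geo.omegaGL (⇑Q) := by
  have h2 := hf.two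
  have hc := hf.ne_zero
  refine lt_of_le_of_ne inf_le_right fun he => ?_
  -- a product of two reflections leaving the frame
  obtain ⟨p, r, hpr⟩ := exists_combination (one_ne_zero (α := F)) (one_ne_zero (α := F)) h2 (-1)
  obtain ⟨a, b, u, w, hab, hau, haw, hbu, hbw, huw⟩ : ∃ a b u w : Fin t,
      a ≠ b ∧ a ≠ u ∧ a ≠ w ∧ b ≠ u ∧ b ≠ w ∧ u ≠ w :=
    ⟨⟨0, by omega⟩, ⟨1, by omega⟩, ⟨2, by omega⟩, ⟨3, by omega⟩, by simp [Fin.ext_iff],
      by simp [Fin.ext_iff], by simp [Fin.ext_iff], by simp [Fin.ext_iff], by simp [Fin.ext_iff],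
      by simp [Fin.ext_iff]⟩
  set v := e a + e b + p • e u + r • e w with hv
  have hco : ∀ k, co Q c e k v = (if k = a then 1 else 0) + (if k = b then 1 else 0) +
      p * (if k = u then 1 else 0) + r * (if k = w then 1 else 0) := fun k => by
    simp [hv, map_add, map_smul, hf.co_e]
  have hQv : Q v = c := by
    simp [hv, QuadraticMap.map_add (⇑Q), QuadraticMap.map_smul, polar_add_left, polar_smul_right,
      polar_smul_left, hf.value, hf.orth a b hab, hf.orth a u hau, hf.orth a w haw,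
      hf.orth b u hbu, hf.orth b w hbw, hf.orth u w huw]
    linear_combination c * hpr
  have hm : rf Q v * rf Q (e a) ∈
      Cfsg.Geo.decompositionStabilizer D ⊓ Cfsg.Geo.omegaGL (⇑Q) := by
    rw [he]
    exact rf_mul_rf_mem hf.nondeg hn (by rw [hQv]; exact hc) (by rw [hQv, hf.value])
  obtain ⟨π, hπ⟩ := hm.1
  have h1 : ap (rf Q v * rf Q (e a)) (e a) ∈ D (π a) := by
    rw [← hπ a]; exact ⟨e a, hmem a, rfl⟩
  obtain ⟨κ, hκ⟩ := hline _ _ h1
  rw [ap_mul, show ap (rf Q (e a)) (e a) = -e a from hf.ext fun k => by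
    rw [hf.co_rf_e, map_neg, hf.co_e]; split_ifs <;> simp, ap_rf, polar_neg_left,
    polar_comm Q (e a) v, hf.polar_e, hQv] at hκ
  have ha' := congrArg (co Q c e a) hκ
  have hb' := congrArg (co Q c e b) hκ
  simp [map_smul, hco, hf.co_e, hab, hab.symm, hau, haw, hbu, hbw] at ha' hb'
  field_simp at ha' hb'
  by_cases hπa : a = π a
  · rw [if_neg (fun h => hab (hπa.trans h.symm))] at hb'
    exact h2 (by linear_combination hb')
  · rw [if_neg hπa] at ha'
    exact one_ne_zero (α := F) (by linear_combination ha')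

/-- The stabiliser of a frame is maximal in odd dimension. -/
theorem frame_isMaximalIn (h2 : (2 : F) ≠ 0) (hn : 5 ≤ Fintype.card ι) (ht : 7 ≤ t)
    (hodd : Odd t) (hs : ∀ a : F, ∃ k : ℕ, (k : F) = a)
    (hD : Cfsg.Geo.IsOrthogonalMDecomposition (⇑Q) 1 D) :
    Cfsg.Geo.IsMaximalIn (Cfsg.Geo.omegaGL (⇑Q))
      (Cfsg.Geo.decompositionStabilizer D ⊓ Cfsg.Geo.omegaGL (⇑Q)) := by
  classical
  obtain ⟨c, e, hf, hmem, hline⟩ := exists_frame h2 hD
  have hc := hf.ne_zero
  refine ⟨stab_lt_omega hf hn (by omega) hmem hline, fun M hHM hMS => ?_⟩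
  by_cases hM : M ≤ Cfsg.Geo.decompositionStabilizer D
  · exact Or.inl (le_antisymm (le_inf hM hMS) hHM)
  refine Or.inr (le_antisymm hMS ?_)
  have hMI : M ≤ Cfsg.isometryGroup F (⇑Q) := hMS.trans omegaGL_le
  have hO := over_of_le hf hn ht hs hD.decomp.decomp hmem hline hHM hMI
  obtain ⟨g, hgM, hg⟩ := SetLike.not_le_iff_exists.mp hM
  -- every element of `M` moves the frame to reflection vectors
  have himg : ∀ g ∈ M, ∀ a, Refl Q c e M (ap g (e a)) := by
    intro g hg a
    obtain ⟨d, hd, hdco⟩ := exists_negation hO (Finset.univ.erase a) (by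
      rw [Finset.card_erase_of_mem (Finset.mem_univ a), Finset.card_univ, Fintype.card_fin]
      rcases hodd with ⟨r, hr⟩
      exact ⟨r, by omega⟩)
    have hdap : ∀ x, ap d x = -ap (rf Q (e a)) x := fun x => hf.ext fun k => by
      rw [hdco, map_neg, hf.co_rf_e]
      by_cases hk : k = a <;> simp [hk]
    have hprod : rf Q (ap g (e a)) * rf Q (e a) = g * d * g⁻¹ * d := by
      rw [← conj_rf (hMI hg)]
      refine gl_ext fun x => ?_
      have hneg : ∀ (f : GL ι F) (y : ι → F), ap f (-y) = -ap f y := fun f y => by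
        rw [← neg_one_smul F y, ap_smul, neg_one_smul]
      simp only [ap_mul, hdap, hneg, neg_neg]
    refine ⟨by rw [mem_isometryGroup_iff.mp (hMI hg), hf.value], fun i => ?_⟩
    have := mul_mem (hprod ▸ mul_mem (mul_mem (mul_mem hg hd) (inv_mem hg)) hd :
      rf Q (ap g (e a)) * rf Q (e a) ∈ M) (hO.sign a i)
    rwa [mul_assoc, rf_mul_self_left] at this
  have hkeep : ∀ g ∈ M, ∀ x, Refl Q c e M x → Refl Q c e M (ap g x) := fun g hg x hx =>
    Refl.ap hO hg (o := ⟨0, by omega⟩) (himg g hg _) hx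
  by_cases hmove : ∃ a i j, i ≠ j ∧ co Q c e i (ap g (e a)) ≠ 0 ∧ co Q c e j (ap g (e a)) ≠ 0
  · obtain ⟨a, i, j, hij, hi, hj⟩ := hmove
    exact omega_le_of_moved hO hn (hkeep g hgM) hij hi hj
  exfalso
  push Not at hmove
  have hex : ∀ a, ∃ i, co Q c e i (ap g (e a)) ≠ 0 := fun a => by
    by_contra! hall
    exact ap_ne_zero g (x := e a) (fun h0 => hc (by rw [← hf.value a, h0, QuadraticMap.map_zero]))
      (hf.ext fun k => by rw [hall k, map_zero])
  choose π hπ using hex
  have hgπ : ∀ a, ap g (e a) = co Q c e (π a) (ap g (e a)) • e (π a) := fun a => hf.ext fun k => by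
    rw [map_smul, smul_eq_mul, hf.co_e]
    by_cases hk : k = π a
    · subst hk; simp
    · simp [hk, hmove a (π a) k (Ne.symm hk) (hπ a)]
  have hinj : Function.Injective π := fun a b hab => by
    by_contra hne
    have h0 := hf.orth a b hne
    rw [← polar_ap (hMI hgM), hgπ a, hgπ b, hab, polar_smul_left, polar_smul_right,
      polar_self_mul, hf.value] at h0
    simp only [smul_eq_mul, mul_eq_zero] at h0
    rcases h0 with h0 | h0 | h0
    · exact hπ a (by rw [hab]; exact h0)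
    · exact hπ b h0
    · exact h0.elim hf.two hc
  exact hg (mem_stab_of_lines hD.decomp.decomp hmem hline
    (π := Equiv.ofBijective π (Finite.injective_iff_bijective.1 hinj)) fun a => ⟨_, hgπ a⟩)

/-- A field of prime order consists of the images of the natural numbers. -/
lemma exists_natCast_of_prime [Fintype F] (hp : (Fintype.card F).Prime) (a : F) :
    ∃ k : ℕ, (k : F) = a := by
  have : Fact (Nat.card F).Prime := ⟨by rwa [Nat.card_eq_fintype_card]⟩
  have hmem : a ∈ AddSubgroup.zmultiples (1 : F) := mem_zmultiples_of_prime_card rfl one_ne_zero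
  obtain ⟨k, rfl⟩ := mem_multiples_iff_mem_zmultiples.2 hmem
  exact ⟨k, by simp⟩

end CfsgLib.Geometric.Orth.Frame
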