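import Cfsg.Agent.Lib.Geometric.Orth.Frame.Rot
import Cfsg.Agent.Lib.Geometric.Orth.Frame.Axes

/-!
A squared coordinate of a reflection vector is one of few values, unless a Siegel element appears
in the space of the vector and two frame vectors.
-/

namespace CfsgLib.Geometric.Orth.Frame

open Matrix QuadraticMap CfsgLib.ClassicalForms

variable {ι : Type} [Fintype ι] [DecidableEq ι] {F : Type*} [Field F]
variable {t : ℕ} {Q : QuadraticForm F (ι → F)} {c : F} {e : Fin t → ι → F}
variable {M : Subgroup (GL ι F)}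

/-- The squared coordinates left by the axis count. -/
def Allowed (x : F) : Prop :=
  x = 1 ∨ 4 * x = 1 ∨ 2 * x = 1 ∨ 16 * x * x - 12 * x + 1 = 0

/-- The elements of `M` preserving the reflection vectors. -/
def keep (Q : QuadraticForm F (ι → F)) (c : F) (e : Fin t → ι → F) (M : Subgroup (GL ι F)) :
    Subgroup (GL ι F) where
  carrier := {g | g ∈ M ∧ (∀ x, Refl Q c e M x → Refl Q c e M (ap g x)) ∧
    ∀ x, Refl Q c e M x → Refl Q c e M (ap g⁻¹ x)}
  one_mem' := ⟨one_mem M, fun x hx => by rwa [ap_one], fun x hx => by rwa [inv_one, ap_one]⟩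
  mul_mem' {g g'} hg hg' := ⟨mul_mem hg.1 hg'.1,
    fun x hx => by rw [ap_mul]; exact hg.2.1 _ (hg'.2.1 x hx),
    fun x hx => by rw [_root_.mul_inv_rev, ap_mul]; exact hg'.2.2 _ (hg.2.2 x hx)⟩
  inv_mem' {g} hg := ⟨inv_mem hg.1, hg.2.2, by rw [inv_inv]; exact hg.2.1⟩

lemma keep_le : keep Q c e M ≤ M := fun _ hg => hg.1

lemma keep_isom (h : Over Q c e M) : keep Q c e M ≤ Cfsg.isometryGroup F (⇑Q) :=
  keep_le.trans h.isom

lemma rf_pair_keep (h : Over Q c e M) {v w : ι → F} (hv : Refl Q c e M v)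
    (hw : Refl Q c e M w) : rf Q v * rf Q w ∈ keep Q c e M :=
  ⟨hv.mul h hw, fun _ hx => hx.pair h hv hw,
    fun x hx => by rw [_root_.mul_inv_rev, rf_inv, rf_inv]; exact hx.pair h hw hv⟩

/-- A family of Siegel elements of centre `u` and anisotropic direction in the space of `v` and the
frame vectors at `i` and `j`, preserving the reflection vectors. -/
def Unip (Q : QuadraticForm F (ι → F)) (c : F) (e : Fin t → ι → F) (M : Subgroup (GL ι F))
    (i j : Fin t) (v : ι → F) : Prop :=
  ∃ u y : ι → F, u ≠ 0 ∧ Q y ≠ 0 ∧ Inn Q (keep Q c e M) u y ∧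
    InSpan Q ![e i, e j, v - co Q c e i v • e i - co Q c e j v • e j] u ∧
    InSpan Q ![e i, e j, v - co Q c e i v • e i - co Q c e j v • e j] y

lemma inn_of_sg (hs : ∀ a : F, ∃ k : ℕ, (k : F) = a) {u y : ι → F} (hu : Q u = 0)
    (hy : polar Q u y = 0) (h : sg Q u y hu hy ∈ M) : Inn Q M u y := by
  refine ⟨hu, hy, fun a => ?_⟩
  obtain ⟨k, rfl⟩ := hs a
  induction k with
  | zero =>
    obtain ⟨hu', hw', hm⟩ := Inn.zero (Q := Q) (M := M) hu
    have := hm 0
    rwa [sg_congr (w' := (((0 : ℕ) : F)) • y) rfl (by simp)] at this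
  | succ k ih =>
    have := mul_mem ih h
    rwa [sg_add', sg_congr (w' := (((k + 1 : ℕ) : F)) • y) rfl
      (by rw [Nat.cast_succ, add_smul, one_smul])] at this

/-- Invertible matrices act on submodules. -/
@[reducible] def lineAction : MulAction (GL ι F) (Submodule F (ι → F)) where
  smul g W := W.map (apEquiv g).toLinearMap
  one_smul W := by
    ext x
    show x ∈ W.map (apEquiv (1 : GL ι F)).toLinearMap ↔ x ∈ W
    exact ⟨fun ⟨y, hy, e⟩ => by simpa [← e] using hy, fun hx => ⟨x, hx, ap_one x⟩⟩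
  mul_smul g g' W := by
    ext x
    show x ∈ W.map (apEquiv (g * g')).toLinearMap ↔
      x ∈ (W.map (apEquiv g').toLinearMap).map (apEquiv g).toLinearMap
    exact ⟨fun ⟨y, hy, e⟩ => ⟨ap g' y, ⟨y, hy, rfl⟩, (ap_mul g g' y).symm.trans e⟩,
      fun ⟨_, ⟨y, hy, e'⟩, e⟩ => ⟨y, hy, by
        simp only [LinearEquiv.coe_coe, apEquiv_apply] at e e' ⊢
        rw [ap_mul, e', e]⟩⟩

/-- The fixed vectors of `g` in the span of the three vectors. -/
def axis (Q : QuadraticForm F (ι → F)) (b : Fin 3 → ι → F) (g : GL ι F) :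
    Submodule F (ι → F) where
  carrier := {x | InSpan Q b x ∧ ap g x = x}
  zero_mem' := ⟨fun y _ => polar_zero_left _ y, ap_zero g⟩
  add_mem' {x y} hx hy := ⟨Triad.inSpan_add hx.1 hy.1, by rw [ap_add, hx.2, hy.2]⟩
  smul_mem' a x hx := ⟨Triad.inSpan_smul a hx.1, by rw [ap_smul, hx.2]⟩

lemma mem_axis {b : Fin 3 → ι → F} {g : GL ι F} {x : ι → F} :
    x ∈ axis Q b g ↔ InSpan Q b x ∧ ap g x = x := Iff.rfl

variable [Finite F]

/-- In a group of rotations fixing no singular vector, an element of order at least six has its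
axis preserved by the whole group. -/
theorem axis_fixed {b : Fin 3 → ι → F} (hb : Triad Q b) {E : Subgroup (GL ι F)}
    (hE : E ≤ rot hb) (hfree : ∀ g ∈ E, g ≠ 1 → ∀ u, InSpan Q b u → Q u = 0 → ap g u = u → u = 0)
    {ρ : GL ι F} (hρ : ρ ∈ E) (h6 : 6 ≤ orderOf ρ) :
    ∃ a, InSpan Q b a ∧ a ≠ 0 ∧ ap ρ a = a ∧
      ∀ g ∈ E, ∃ κ : F, ap g a = κ • a := by
  letI := lineAction (ι := ι) (F := F)
  have hline : ∀ g ∈ E, g ≠ 1 → ∀ a, a ∈ axis Q b g → a ≠ 0 →
      axis Q b g = Submodule.span F {a} := by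
    intro g hg hg1 a ha ha0
    refine le_antisymm (fun x hx => ?_) (Submodule.span_le.2 (Set.singleton_subset_iff.2 ha))
    have hQa : Q a ≠ 0 := fun h => ha0 (hfree g hg hg1 a ha.1 h ha.2)
    set x' := x - (polar Q x a / polar Q a a) • a
    have hx' : x' ∈ axis Q b g := Submodule.sub_mem _ hx (Submodule.smul_mem _ _ ha)
    by_cases h0 : x' = 0
    · exact Submodule.mem_span_singleton.2 ⟨_, (sub_eq_zero.1 h0).symm⟩
    have hQx : Q x' ≠ 0 := fun h => h0 (hfree g hg hg1 x' hx'.1 h hx'.2)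
    refine absurd (eq_one_of_fix hb (hE hg) ha.1 hx'.1 hQa hQx ?_ ha.2 hx'.2) hg1
    rw [polar_sub_right, polar_smul_right, smul_eq_mul, div_mul_cancel₀ _
      (by rw [polar_self_mul]; exact mul_ne_zero hb.two hQa), polar_comm Q a x, sub_self]
  have hex : ∀ g ∈ E, ∃ a ∈ axis Q b g, a ≠ 0 := fun g hg => by
    obtain ⟨a, h1, h2, h3⟩ := exists_fixed hb (hE hg)
    exact ⟨a, ⟨h1, h3⟩, h2⟩
  have hsmul : ∀ (g : E) (W : Submodule F (ι → F)),
      g • W = W.map (apEquiv (g : GL ι F)).toLinearMap := fun g W => rfl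
  have key := smul_axis_eq (G := E) (X := Submodule F (ι → F))
    (f := fun g => axis Q b (g : GL ι F)) ?_ ?_ ?_ ?_ (h := ⟨ρ, hρ⟩)
    (by rwa [← Subgroup.orderOf_coe])
  · obtain ⟨a, ha, ha0⟩ := hex ρ hρ
    refine ⟨a, ha.1, ha0, ha.2, fun g hg => ?_⟩
    have hρ1 : ρ ≠ 1 := fun h => by simp [h] at h6
    have h1 : ap g a ∈ axis Q b ρ := by
      rw [← key ⟨g, hg⟩, hsmul]
      exact ⟨a, ha, rfl⟩
    rw [hline ρ hρ hρ1 a ha ha0] at h1
    obtain ⟨κ, hκ⟩ := Submodule.mem_span_singleton.1 h1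
    exact ⟨κ, hκ.symm⟩
  · rintro ⟨g, hg⟩ ⟨g', hg'⟩ -
    rw [hsmul]
    have hgi : ∀ x, InSpan Q b x → InSpan Q b (ap g x) := fun x hx =>
      hb.inSpan_ap (hE hg).1 (hE hg).2.1 hx
    have hgi' : ∀ x, InSpan Q b x → InSpan Q b (ap g⁻¹ x) := fun x hx =>
      hb.inSpan_ap (hE (inv_mem hg)).1 (hE (inv_mem hg)).2.1 hx
    ext x
    simp only [Subgroup.coe_mul, Subgroup.coe_inv, mem_axis, Submodule.mem_map,
      LinearEquiv.coe_coe, apEquiv_apply, ap_mul]
    constructor
    · rintro ⟨hx, hfx⟩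
      refine ⟨ap g⁻¹ x, ⟨hgi' x hx, ap_injective g ?_⟩, ap_ap_inv g x⟩
      rw [hfx, ap_ap_inv]
    · rintro ⟨y, ⟨hy, hfy⟩, rfl⟩
      exact ⟨hgi y hy, by rw [ap_inv_ap, hfy]⟩
  · rintro ⟨g, hg⟩ ⟨g', hg'⟩ h1 h2 h12 heq
    have hg1 : g ≠ 1 := fun h => h1 (Subtype.ext h)
    have hgg : g * g' ≠ 1 := fun h => h12 (Subtype.ext h)
    obtain ⟨a, ha, ha0⟩ := hex g hg
    have ha' : a ∈ axis Q b g' := (SetLike.ext_iff.1 heq a).1 ha
    have hamul : a ∈ axis Q b (g * g') := ⟨ha.1, by rw [ap_mul, ha'.2, ha.2]⟩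
    show axis Q b (g * g') = axis Q b g
    rw [hline _ (mul_mem hg hg') hgg a hamul ha0, hline g hg hg1 a ha ha0]
  · rintro ⟨g, hg⟩ -
    ext x
    simp only [Subgroup.coe_inv, mem_axis]
    refine and_congr_right fun _ => ⟨fun h => ?_, fun h => ?_⟩
    · conv_lhs => rw [← h, ap_ap_inv]
    · conv_lhs => rw [← h, ap_inv_ap]
  · rintro ⟨k, hk⟩ hk1 ⟨g, hg⟩ ⟨g', hg'⟩ hgL hgL' hgn hgn'
    have hk1' : k ≠ 1 := fun h => hk1 (Subtype.ext h)
    obtain ⟨a, ha, ha0⟩ := hex k hk
    have hax := hline k hk hk1' a ha ha0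
    have hQa : Q a ≠ 0 := fun h => ha0 (hfree k hk hk1' a ha.1 h ha.2)
    have hneg : ∀ g₀ (hg₀ : g₀ ∈ E), (⟨g₀, hg₀⟩ : E) • axis Q b k = axis Q b k →
        ¬((⟨g₀, hg₀⟩ : E) = 1 ∨ axis Q b g₀ = axis Q b k) → ap g₀ a = -a := by
      intro g₀ hg₀ hfix hn
      have h1 : ap g₀ a ∈ axis Q b k := by
        rw [← hfix, hsmul]; exact ⟨a, ha, rfl⟩
      rw [hax] at h1
      obtain ⟨κ, hκ⟩ := Submodule.mem_span_singleton.1 h1
      have hQ := mem_isometryGroup_iff.mp (hE hg₀).1 a
      rw [← hκ, QuadraticMap.map_smul, smul_eq_mul] at hQ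
      rcases mul_self_eq_one_iff.1 (mul_right_cancel₀ hQa (hQ.trans (one_mul _).symm)) with h | h
      · rw [h, one_smul] at hκ
        by_cases h₀ : g₀ = 1
        · exact absurd (Or.inl (Subtype.ext h₀)) hn
        · exact absurd (Or.inr (by rw [hline g₀ hg₀ h₀ a ⟨ha.1, hκ.symm⟩ ha0, hax])) hn
      · rw [← hκ, h, neg_smul, one_smul]
    by_cases h12 : g * g' = 1
    · exact Or.inl (Subtype.ext h12)
    refine Or.inr ?_
    have e1 := hneg g hg hgL hgn
    have e2 := hneg g' hg' hgL' hgn'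
    show axis Q b (g * g') = axis Q b k
    rw [hline _ (mul_mem hg hg') h12 a ⟨ha.1, ?_⟩ ha0, hax]
    rw [ap_mul, e2, show -a = (-1 : F) • a by simp, ap_smul, e1]
    simp

/-- The squared coordinate is allowed unless there is a Siegel element. -/
theorem allowed_or_unip (h : Over Q c e M) {v : ι → F} (hv : Refl Q c e M v) {i j : Fin t}
    (hij : i ≠ j) (hi : co Q c e i v ≠ 0) (hj : co Q c e j v ≠ 0)
    (hz : co Q c e i v * co Q c e i v + co Q c e j v * co Q c e j v ≠ 1) :
    Allowed (co Q c e i v * co Q c e i v) ∨ Unip Q c e M i j v := by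
  have hf := h.frame
  set α := co Q c e i v with hα
  set β := co Q c e j v with hβ
  set z := v - α • e i - β • e j with hzdef
  have hzi : polar Q z (e i) = 0 := by
    rw [hf.polar_e]
    simp [hzdef, map_sub, map_smul, hf.co_e, hij, ← hα]
  have hzj : polar Q z (e j) = 0 := by
    rw [hf.polar_e]
    simp [hzdef, map_sub, map_smul, hf.co_e, hij.symm, ← hβ]
  have hzv : z + α • e i + β • e j = v := by rw [hzdef]; abel
  have hQz : Q z = c * (1 - α * α - β * β) := by
    have h1 : Q v = Q z + c * (α * α) + c * (β * β) := by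
      conv_lhs => rw [← hzv]
      rw [QuadraticMap.map_add (⇑Q), QuadraticMap.map_add (⇑Q), QuadraticMap.map_smul,
        QuadraticMap.map_smul, hf.value, hf.value, polar_smul_right, polar_smul_right,
        polar_add_left, polar_smul_left, hzi, hzj, hf.orth i j hij]
      simp only [smul_eq_mul]
      ring
    rw [hv.1] at h1
    linear_combination -h1
  have hQz0 : Q z ≠ 0 := by
    rw [hQz]
    exact mul_ne_zero hf.ne_zero fun h0 => hz (by linear_combination -h0)
  set b : Fin 3 → ι → F := ![e i, e j, z] with hbdef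
  have hb : Triad Q b := ⟨hf.two, hf.nondeg, by
    intro l m hlm
    have hiz : polar Q (e i) z = 0 := by rw [polar_comm]; exact hzi
    have hjz : polar Q (e j) z = 0 := by rw [polar_comm]; exact hzj
    fin_cases l <;> fin_cases m <;>
      first
        | exact absurd rfl hlm
        | exact hf.orth i j hij
        | exact hf.orth j i hij.symm
        | exact hiz
        | exact hjz
        | exact hzi
        | exact hzj, by
    intro l; fin_cases l <;> simp [hbdef, hf.value, hf.ne_zero, hQz0]⟩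
  have hei : InSpan Q b (e i) := Triad.inSpan_b (b := b) 0
  have hej : InSpan Q b (e j) := Triad.inSpan_b (b := b) 1
  have hvs : InSpan Q b v := by
    rw [← hzv]
    exact Triad.inSpan_add (Triad.inSpan_add (Triad.inSpan_b (b := b) 2) (Triad.inSpan_smul _ hei))
      (Triad.inSpan_smul _ hej)
  have hQv : Q v ≠ 0 := by rw [hv.1]; exact hf.ne_zero
  have hQe : ∀ l, Q (e l) ≠ 0 := fun l => by rw [hf.value]; exact hf.ne_zero
  set E := Subgroup.closure ({rf Q (e i) * rf Q (e j), rf Q (e i) * rf Q v} : Set (GL ι F))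
  have hEM : E ≤ keep Q c e M := by
    rw [Subgroup.closure_le]
    rintro _ (rfl | rfl)
    · exact rf_pair_keep h (Refl.frame h i) (Refl.frame h j)
    · exact rf_pair_keep h (Refl.frame h i) hv
  have hE : E ≤ rot hb := by
    rw [Subgroup.closure_le]
    rintro _ (rfl | rfl)
    · exact rf_mul_rf_mem_rot hb hei hej (hQe i) (hQe j)
    · exact rf_mul_rf_mem_rot hb hei hvs (hQe i) hQv
  by_cases hfree : ∀ g ∈ E, g ≠ 1 → ∀ u, InSpan Q b u → Q u = 0 → ap g u = u → u = 0
  swap
  · push Not at hfree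
    obtain ⟨g, hg, hg1, u, hu, hQu, hgu, hu0⟩ := hfree
    obtain ⟨y, hy, hys, hQy, rfl⟩ := eq_sg_of_fix hb (hE hg) hg1 hu hu0 hQu hgu
    exact Or.inr ⟨u, y, hu0, hQy, inn_of_sg h.surj hQu hy (hEM hg), hu, hys⟩
  refine Or.inl ?_
  set ρ := rf Q (e i) * rf Q v with hρ
  have hρE : ρ ∈ E := Subgroup.subset_closure (Or.inr rfl)
  by_cases h6 : 6 ≤ orderOf ρ
  · exfalso
    obtain ⟨a, ha, ha0, hρa, hstab⟩ := axis_fixed hb hE hfree hρE h6
    have h1 : ap (rf Q v) a = ap (rf Q (e i)) a := by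
      conv_rhs => rw [← hρa, hρ, ap_mul, ← ap_mul, rf_mul_self, ap_one]
    rw [ap_rf, ap_rf] at h1
    have h2 := congrArg (co Q c e j) h1
    simp only [map_sub, map_smul, hf.co_e, if_neg hij.symm, smul_zero, sub_zero, smul_eq_mul,
      ← hβ] at h2
    replace h2 : polar Q a v = 0 := by
      have h2' : (Q v)⁻¹ * polar Q a v * β = 0 := by linear_combination -h2
      exact (mul_eq_zero.1 ((mul_eq_zero.1 h2').resolve_right hj)).resolve_left (inv_ne_zero hQv)
    rw [h2, mul_zero, zero_smul, sub_zero, eq_comm, sub_eq_self, smul_eq_zero, mul_eq_zero,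
      inv_eq_zero, or_iff_right (hQe i), or_iff_left (fun h0 : e i = 0 => hQe i (by simp [h0]))]
      at h1
    obtain ⟨κ, hκ⟩ := hstab _ (Subgroup.subset_closure (Or.inl rfl))
    have haz : polar Q a v = β * polar Q a (e j) + polar Q a z := by
      conv_lhs => rw [← hzv]
      rw [polar_add_right, polar_add_right, polar_smul_right, polar_smul_right, h1]
      simp only [smul_eq_mul, mul_zero, add_zero]
      ring
    rw [ap_mul, ap_rf (e j), ap_sub, ap_smul,
      ap_rf_fix (x := a) h1, ap_rf_fix (hf.orth j i hij.symm)] at hκ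
    have k1 := congrArg (fun x => polar Q x (e j)) hκ
    have k2 := congrArg (fun x => polar Q x z) hκ
    simp only [polar_sub_left, polar_smul_left, smul_eq_mul, polar_self_mul, hf.value,
      polar_comm Q (e j) z, hzj] at k1 k2
    have k1' : polar Q a (e j) * (κ + 1) = 0 := by
      field_simp [hf.ne_zero] at k1
      linear_combination -k1
    have k2' : polar Q a z * (κ - 1) = 0 := by linear_combination -k2
    have hanz : polar Q a (e j) ≠ 0 := by
      intro h0
      have hz0 : polar Q a z = 0 := by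
        rw [h2, h0, mul_zero, zero_add] at haz
        exact haz.symm
      refine ha0 ?_
      rw [← hb.sum_co3 ha]
      simp [Fin.sum_univ_three, co3_apply, hbdef, h1, h0, hz0]
    have hκ1 : κ = -1 := eq_neg_of_add_eq_zero_left ((mul_eq_zero.1 k1').resolve_left hanz)
    rw [hκ1] at k2'
    rcases mul_eq_zero.1 k2' with h0 | h0
    · rw [h2, h0, add_zero] at haz
      exact mul_ne_zero hj hanz haz.symm
    · exact hf.two (by linear_combination -h0)
  -- the small orders
  have hve : polar Q v (e i) = 2 * c * α := hf.polar_e i v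
  have hre : ap ρ (e i) = (4 * α * α - 1) • e i - (2 * α) • v := by
    rw [hρ, ap_mul, ap_rf v, polar_comm Q (e i) v, hve, hv.1, ap_sub, ap_smul, ap_rf, ap_rf,
      polar_self_mul, hve, hf.value]
    match_scalars <;> field_simp [hf.ne_zero] <;> ring
  have hrv : ap ρ v = (2 * α) • e i - v := by
    rw [hρ, ap_mul, ap_rf v, polar_self_mul, hv.1, ap_sub, ap_smul, ap_rf, hve, hf.value]
    match_scalars <;> field_simp [hf.ne_zero] <;> ring
  have hstep : ∀ p r : F, ap ρ (p • e i + r • v) =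
      (p * (4 * α * α - 1) + r * (2 * α)) • e i + (-(2 * α * p) - r) • v := fun p r => by
    rw [ap_add, ap_smul, ap_smul, hre, hrv]
    module
  have hcoeff : ∀ p r : F, p • e i + r • v = e i → p + r * α = 1 ∧ r = 0 := by
    intro p r hpr
    have hr : r = 0 := by
      have := congrArg (co Q c e j) hpr
      simp [map_add, map_smul, hf.co_e, hij.symm, ← hβ] at this
      exact this.resolve_right hj
    have := congrArg (co Q c e i) hpr
    simp [map_add, map_smul, hf.co_e, ← hα] at this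
    exact ⟨this, hr⟩
  have hord : ρ ^ orderOf ρ = 1 := pow_orderOf_eq_one ρ
  have hpos : 0 < orderOf ρ := orderOf_pos ρ
  have hk := congrArg (fun g => ap g (e i)) hord
  have h0 : e i = (1 : F) • e i + (0 : F) • v := by simp
  rw [not_le] at h6
  simp only [ap_one] at hk
  interval_cases hn : orderOf ρ <;>
    simp only [pow_succ', pow_zero, mul_one, ap_mul, ap_one] at hk <;>
    conv_lhs at hk => rw [h0]
  all_goals simp only [hstep] at hk
  all_goals obtain ⟨hP, hR⟩ := hcoeff _ _ hk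
  all_goals rw [hR, zero_mul, add_zero] at hP
  · exact absurd hR (by simpa using mul_ne_zero hf.two hi)
  · have : 4 * (α * α) - 2 = 0 := by
      refine (mul_eq_zero.1 (show 2 * α * _ = 0 from ?_)).resolve_left (mul_ne_zero hf.two hi)
      linear_combination -hR
    exfalso
    refine hf.two ?_
    linear_combination -hP + (4 * (α * α) - 1) * this
  · have : (4 * (α * α) - 1) * (4 * (α * α) - 3) = 0 := by
      refine (mul_eq_zero.1 (show 2 * α * _ = 0 from ?_)).resolve_left (mul_ne_zero hf.two hi)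
      linear_combination -hR
    rcases mul_eq_zero.1 this with h3 | h3
    · exact Or.inr (Or.inl (by linear_combination h3))
    · exfalso
      refine hf.two ?_
      linear_combination -hP + ((4 * (α * α)) * (4 * (α * α)) - 2 * (4 * (α * α))) * h3
  · have : (4 * (α * α) - 2) * ((4 * (α * α)) * (4 * (α * α)) - 4 * (4 * (α * α)) + 2) = 0 := by
      refine (mul_eq_zero.1 (show 2 * α * _ = 0 from ?_)).resolve_left (mul_ne_zero hf.two hi)
      linear_combination -hR
    rcases mul_eq_zero.1 this with h3 | h3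
    · refine Or.inr (Or.inr (Or.inl ?_))
      refine mul_left_cancel₀ hf.two ?_
      linear_combination h3
    · exfalso
      refine hf.two ?_
      linear_combination -hP + ((4 * (α * α)) * (4 * (α * α)) - 3 * (4 * (α * α)) + 1) * h3
  · have : ((4 * (α * α)) * (4 * (α * α)) - 3 * (4 * (α * α)) + 1) *
        ((4 * (α * α)) * (4 * (α * α)) - 5 * (4 * (α * α)) + 5) = 0 := by
      refine (mul_eq_zero.1 (show 2 * α * _ = 0 from ?_)).resolve_left (mul_ne_zero hf.two hi)
      linear_combination -hR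
    rcases mul_eq_zero.1 this with h3 | h3
    · exact Or.inr (Or.inr (Or.inr (by linear_combination h3)))
    · exfalso
      refine hf.two ?_
      linear_combination -hP + ((4 * (α * α)) * (4 * (α * α)) * (4 * (α * α)) -
        4 * ((4 * (α * α)) * (4 * (α * α))) + 3 * (4 * (α * α))) * h3

end CfsgLib.Geometric.Orth.Frame
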