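import Cfsg.Agent.Lib.Geometric.Orth.Frame.Basic
import Mathlib.LinearAlgebra.Matrix.ToLinearEquiv

/-!
Rotations of a non-degenerate three-dimensional space: they fix a line, and those fixing a singular
vector are Siegel elements.
-/

namespace CfsgLib.Geometric.Orth.Frame

open Matrix QuadraticMap CfsgLib.ClassicalForms

variable {ι : Type} [Fintype ι] [DecidableEq ι] {F : Type*} [Field F]
variable {Q : QuadraticForm F (ι → F)} {b : Fin 3 → ι → F}

/-- Three pairwise orthogonal anisotropic vectors. -/
structure Triad (Q : QuadraticForm F (ι → F)) (b : Fin 3 → ι → F) : Prop where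
  two : (2 : F) ≠ 0
  nondeg : Nondeg Q
  orth : ∀ l m, l ≠ m → polar Q (b l) (b m) = 0
  aniso : ∀ l, Q (b l) ≠ 0

/-- The coordinate at the `l`-th vector. -/
def co3 (Q : QuadraticForm F (ι → F)) (b : Fin 3 → ι → F) (l : Fin 3) : (ι → F) →ₗ[F] F :=
  (polar Q (b l) (b l))⁻¹ • pf Q (b l)

omit [Fintype ι] [DecidableEq ι] in
lemma co3_apply (l : Fin 3) (x : ι → F) :
    co3 Q b l x = (polar Q (b l) (b l))⁻¹ * polar Q x (b l) := rfl

/-- The vectors orthogonal to the three vectors. -/
def Perp (Q : QuadraticForm F (ι → F)) (b : Fin 3 → ι → F) (x : ι → F) : Prop :=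
  ∀ l, polar Q x (b l) = 0

/-- Being in the span of the three vectors. -/
def InSpan (Q : QuadraticForm F (ι → F)) (b : Fin 3 → ι → F) (x : ι → F) : Prop :=
  ∀ y, Perp Q b y → polar Q x y = 0

/-- The matrix of the action on the three vectors. -/
def amat (Q : QuadraticForm F (ι → F)) (b : Fin 3 → ι → F) (g : GL ι F) :
    Matrix (Fin 3) (Fin 3) F :=
  Matrix.of fun l m => co3 Q b l (ap g (b m))

namespace Triad

variable (hb : Triad Q b)
include hb

omit [Fintype ι] [DecidableEq ι] in
lemma self_ne (l : Fin 3) : polar Q (b l) (b l) ≠ 0 := by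
  rw [polar_self_mul]; exact mul_ne_zero hb.two (hb.aniso l)

omit [Fintype ι] [DecidableEq ι] in
lemma co3_b (l m : Fin 3) : co3 Q b l (b m) = if l = m then 1 else 0 := by
  split_ifs with h
  · subst h; rw [co3_apply, inv_mul_cancel₀ (hb.self_ne l)]
  · rw [co3_apply, hb.orth m l (Ne.symm h), mul_zero]

omit [Fintype ι] [DecidableEq ι] in
lemma perp_sub (x : ι → F) : Perp Q b (x - ∑ l, co3 Q b l x • b l) := by
  intro m
  have h : polar Q (∑ l, co3 Q b l x • b l) (b m) = co3 Q b m x * polar Q (b m) (b m) := by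
    simp only [Fin.sum_univ_three, polar_add_left, polar_smul_left, smul_eq_mul]
    fin_cases m <;>
      simp [hb.orth 0 1, hb.orth 0 2, hb.orth 1 0, hb.orth 1 2, hb.orth 2 0, hb.orth 2 1]
  rw [polar_sub_left, h, co3_apply, mul_comm, ← mul_assoc, mul_inv_cancel₀ (hb.self_ne m),
    one_mul, sub_self]

omit [Fintype ι] [DecidableEq ι] hb in
lemma inSpan_b (l : Fin 3) : InSpan Q b (b l) := fun y hy => by rw [polar_comm]; exact hy l

omit [Fintype ι] [DecidableEq ι] hb in
lemma inSpan_add {x y : ι → F} (hx : InSpan Q b x) (hy : InSpan Q b y) : InSpan Q b (x + y) :=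
  fun z hz => by rw [polar_add_left, hx z hz, hy z hz, add_zero]

omit [Fintype ι] [DecidableEq ι] hb in
lemma inSpan_smul (a : F) {x : ι → F} (hx : InSpan Q b x) : InSpan Q b (a • x) :=
  fun z hz => by rw [polar_smul_left, hx z hz, smul_zero]

omit [Fintype ι] [DecidableEq ι] in
lemma sum_co3 {x : ι → F} (hx : InSpan Q b x) : ∑ l, co3 Q b l x • b l = x := by
  have hp := hb.perp_sub x
  have hs : InSpan Q b (x - ∑ l, co3 Q b l x • b l) := fun z hz => by
    simp only [Fin.sum_univ_three, polar_sub_left, polar_add_left, polar_smul_left, hx z hz,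
      inSpan_b 0 z hz, inSpan_b 1 z hz, inSpan_b 2 z hz, smul_zero, add_zero, sub_zero]
  have h0 : x - ∑ l, co3 Q b l x • b l = 0 := by
    refine hb.nondeg _ fun y => ?_
    rw [← sub_add_cancel y (∑ l, co3 Q b l y • b l), polar_add_right, hs _ (hb.perp_sub y)]
    generalize x - ∑ l, co3 Q b l x • b l = d at hp ⊢
    simp only [Fin.sum_univ_three, polar_add_right, polar_smul_right, hp 0, hp 1, hp 2, smul_zero,
      add_zero]
  exact (sub_eq_zero.1 h0).symm

omit [Fintype ι] [DecidableEq ι] in
lemma polar_eq {x y : ι → F} (hy : InSpan Q b y) :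
    polar Q x y = ∑ l, co3 Q b l x * co3 Q b l y * polar Q (b l) (b l) := by
  conv_lhs => rw [← hb.sum_co3 hy]
  simp only [Fin.sum_univ_three, polar_add_right, polar_smul_right, smul_eq_mul, co3_apply]
  have := hb.self_ne 0; have := hb.self_ne 1; have := hb.self_ne 2
  field_simp

lemma inSpan_ap {g : GL ι F} (hg : g ∈ Cfsg.isometryGroup F (⇑Q))
    (hfix : ∀ x, Perp Q b x → ap g x = x) {x : ι → F} (hx : InSpan Q b x) :
    InSpan Q b (ap g x) := fun y hy => by
  rw [← hfix y hy, polar_ap hg]; exact hx y hy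

lemma gl_eq {g g' : GL ι F} (hfix : ∀ x, Perp Q b x → ap g x = x)
    (hfix' : ∀ x, Perp Q b x → ap g' x = x) (hb' : ∀ l, ap g (b l) = ap g' (b l)) : g = g' := by
  refine gl_ext fun x => ?_
  rw [← sub_add_cancel x (∑ l, co3 Q b l x • b l), ap_add, ap_add, hfix _ (hb.perp_sub x),
    hfix' _ (hb.perp_sub x)]
  simp only [Fin.sum_univ_three, ap_add, ap_smul, hb']

end Triad

/-- The isometries fixing the orthogonal complement, of determinant one on the span. -/
def rot (hb : Triad Q b) : Subgroup (GL ι F) where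
  carrier := {g | g ∈ Cfsg.isometryGroup F (⇑Q) ∧ (∀ x, Perp Q b x → ap g x = x) ∧
    (amat Q b g).det = 1}
  one_mem' := ⟨one_mem _, fun x _ => ap_one x, by
    rw [show amat Q b (1 : GL ι F) = 1 from Matrix.ext fun l m => by
      simp [amat, hb.co3_b, Matrix.one_apply], Matrix.det_one]⟩
  mul_mem' {g h} hg hh := ⟨mul_mem hg.1 hh.1,
    fun x hx => by rw [ap_mul, hh.2.1 x hx, hg.2.1 x hx], by
    rw [show amat Q b (g * h) = amat Q b g * amat Q b h from Matrix.ext fun l m => by
      simp only [amat, Matrix.of_apply, Matrix.mul_apply, ap_mul]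
      conv_lhs => rw [← hb.sum_co3 (hb.inSpan_ap hh.1 hh.2.1 (Triad.inSpan_b m))]
      simp only [Fin.sum_univ_three, ap_add, ap_smul, map_add, map_smul, smul_eq_mul]
      ring, Matrix.det_mul, hg.2.2, hh.2.2, one_mul]⟩
  inv_mem' {g} hg := by
    have hfix : ∀ x, Perp Q b x → ap g⁻¹ x = x := fun x hx => by
      conv_lhs => rw [← hg.2.1 x hx]
      exact ap_inv_ap g x
    refine ⟨inv_mem hg.1, hfix, ?_⟩
    have h : amat Q b g * amat Q b g⁻¹ = 1 := Matrix.ext fun l m => by
      simp only [amat, Matrix.of_apply, Matrix.mul_apply]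
      have : ap g (∑ k, co3 Q b k (ap g⁻¹ (b m)) • b k) = b m := by
        rw [hb.sum_co3 (hb.inSpan_ap (inv_mem hg.1) hfix (Triad.inSpan_b m)), ap_ap_inv]
      have h' := congrArg (co3 Q b l) this
      simp only [Fin.sum_univ_three, ap_add, ap_smul, map_add, map_smul, smul_eq_mul,
        hb.co3_b] at h'
      rw [Matrix.one_apply, Fin.sum_univ_three, ← h']
      ring
    have := congrArg Matrix.det h
    rwa [Matrix.det_mul, hg.2.2, one_mul, Matrix.det_one] at this

variable (hb : Triad Q b)
include hb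

lemma mem_rot {g : GL ι F} :
    g ∈ rot hb ↔ g ∈ Cfsg.isometryGroup F (⇑Q) ∧ (∀ x, Perp Q b x → ap g x = x) ∧
      (amat Q b g).det = 1 := Iff.rfl

/-- A reflection inside the span has determinant minus one there. -/
lemma det_amat_rf {v : ι → F} (hv : InSpan Q b v) (hQv : Q v ≠ 0) :
    (amat Q b (rf Q v)).det = -1 := by
  have h : amat Q b (rf Q v) = 1 + Matrix.replicateCol Unit (fun l => -co3 Q b l v) *
      Matrix.replicateRow Unit (fun m => (Q v)⁻¹ * polar Q (b m) v) := Matrix.ext fun l m => by
    simp only [amat, Matrix.of_apply, ap_rf, map_sub, map_smul, hb.co3_b, smul_eq_mul,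
      Matrix.add_apply, Matrix.one_apply, Matrix.mul_apply, Matrix.replicateCol_apply,
      Matrix.replicateRow_apply, Finset.univ_unique, Finset.sum_singleton]
    ring
  rw [h, Matrix.det_one_add_replicateCol_mul_replicateRow]
  have hs : polar Q v v = ∑ m, co3 Q b m v * polar Q v (b m) := by
    conv_lhs => enter [3]; rw [← hb.sum_co3 hv]
    simp only [Fin.sum_univ_three, polar_add_right, polar_smul_right, smul_eq_mul]
  have e : (fun m => (Q v)⁻¹ * polar Q (b m) v) ⬝ᵥ (fun l => -co3 Q b l v) =
      -((Q v)⁻¹ * polar Q v v) := by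
    rw [hs]
    simp only [dotProduct, Fin.sum_univ_three, polar_comm Q (b _) v]
    ring
  rw [e, polar_self_mul]
  field_simp
  ring

lemma rf_fix_perp {v : ι → F} (hv : InSpan Q b v) {x : ι → F} (hx : Perp Q b x) :
    ap (rf Q v) x = x := ap_rf_fix (by rw [polar_comm]; exact hv x hx)

lemma rf_mul_rf_mem_rot {v w : ι → F} (hv : InSpan Q b v) (hw : InSpan Q b w) (hQv : Q v ≠ 0)
    (hQw : Q w ≠ 0) : rf Q v * rf Q w ∈ rot hb := by
  refine ⟨mul_mem (rf_mem_isom v) (rf_mem_isom w), fun x hx => by
    rw [ap_mul, rf_fix_perp hb hw hx, rf_fix_perp hb hv hx], ?_⟩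
  rw [show amat Q b (rf Q v * rf Q w) = amat Q b (rf Q v) * amat Q b (rf Q w) from
    Matrix.ext fun l m => by
      simp only [amat, Matrix.of_apply, Matrix.mul_apply, ap_mul]
      conv_lhs => rw [← hb.sum_co3 (hb.inSpan_ap (rf_mem_isom w)
        (fun y hy => rf_fix_perp hb hw hy) (Triad.inSpan_b m))]
      simp only [Fin.sum_univ_three, ap_add, ap_smul, map_add, map_smul, smul_eq_mul]
      ring, Matrix.det_mul, det_amat_rf hb hv hQv, det_amat_rf hb hw hQw]
  ring

/-- A rotation fixes a non-zero vector of the span. -/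
lemma exists_fixed {g : GL ι F} (hg : g ∈ rot hb) :
    ∃ a, InSpan Q b a ∧ a ≠ 0 ∧ ap g a = a := by
  set A := amat Q b g with hA
  set J : Matrix (Fin 3) (Fin 3) F := Matrix.diagonal fun l => polar Q (b l) (b l)
  have hiso : Aᵀ * J * A = J := Matrix.ext fun l m => by
    have h := hb.polar_eq (x := ap g (b l)) (hb.inSpan_ap hg.1 hg.2.1 (Triad.inSpan_b m))
    rw [polar_ap hg.1] at h
    simp only [Matrix.mul_apply, Matrix.transpose_apply, J, Matrix.diagonal_apply,
      mul_ite, mul_zero, Finset.sum_ite_eq', Finset.mem_univ, if_true]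
    rw [show ∑ k, A k l * polar Q (b k) (b k) * A k m =
      ∑ k, co3 Q b k (ap g (b l)) * co3 Q b k (ap g (b m)) * polar Q (b k) (b k) from
      Finset.sum_congr rfl fun k _ => by simp only [hA, amat, Matrix.of_apply]; ring, ← h]
    split_ifs with e
    · rw [e]
    · exact hb.orth l m e
  have hJ : J.det ≠ 0 := by
    rw [Matrix.det_diagonal]
    exact Finset.prod_ne_zero_iff.2 fun l _ => hb.self_ne l
  have heq : (A - 1)ᵀ * J * A = J * (1 - A) := by
    rw [Matrix.transpose_sub, Matrix.transpose_one, sub_mul, sub_mul, hiso, one_mul, mul_sub,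
      mul_one]
  have hdet := congrArg Matrix.det heq
  rw [Matrix.det_mul, Matrix.det_mul, Matrix.det_mul, Matrix.det_transpose, hg.2.2, mul_one,
    ← neg_sub A 1, Matrix.det_neg, Fintype.card_fin] at hdet
  have h0 : (A - 1).det = 0 := by
    refine (mul_eq_zero.1 ?_).resolve_left (mul_ne_zero hb.two hJ)
    linear_combination hdet
  obtain ⟨z, hz0, hz⟩ := Matrix.exists_mulVec_eq_zero_iff.2 h0
  have ha : InSpan Q b (∑ l, z l • b l) := fun y hy => by
    simp only [Fin.sum_univ_three, polar_add_left, polar_smul_left, Triad.inSpan_b _ y hy,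
      smul_zero, add_zero]
  have hco : ∀ m, co3 Q b m (∑ l, z l • b l) = z m := fun m => by
    simp [map_sum, map_smul, hb.co3_b]
  refine ⟨_, ha, fun h => hz0 (funext fun m => by rw [← hco m, h, map_zero, Pi.zero_apply]), ?_⟩
  rw [← hb.sum_co3 (hb.inSpan_ap hg.1 hg.2.1 ha)]
  refine Finset.sum_congr rfl fun l _ => ?_
  have hl := congrFun hz l
  rw [Matrix.sub_mulVec, Matrix.one_mulVec, Pi.sub_apply, Pi.zero_apply] at hl
  simp only [Matrix.mulVec, dotProduct, hA, amat, Matrix.of_apply, Fin.sum_univ_three] at hl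
  congr 1
  simp only [Fin.sum_univ_three, ap_add, ap_smul, map_add, map_smul, smul_eq_mul]
  linear_combination hl

/-- Two orthogonal anisotropic vectors of the span extend to a second triad with the same span. -/
lemma exists_third {a a' : ι → F} (ha : InSpan Q b a) (ha' : InSpan Q b a') (hQa : Q a ≠ 0)
    (hQa' : Q a' ≠ 0) (horth : polar Q a a' = 0) :
    ∃ y, InSpan Q b y ∧ Triad Q ![a, a', y] ∧ ∀ x, InSpan Q b x → InSpan Q ![a, a', y] x := by
  set y : Fin 3 → ι → F := fun l =>
    b l - (polar Q (b l) a / polar Q a a) • a - (polar Q (b l) a' / polar Q a' a') • a'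
  have hA : polar Q a a ≠ 0 := by rw [polar_self_mul]; exact mul_ne_zero hb.two hQa
  have hA' : polar Q a' a' ≠ 0 := by rw [polar_self_mul]; exact mul_ne_zero hb.two hQa'
  have hya : ∀ l, polar Q (y l) a = 0 := fun l => by
    simp only [y, polar_sub_left, polar_smul_left, smul_eq_mul, polar_comm Q a' a, horth,
      div_mul_cancel₀ _ hA]
    ring
  have hya' : ∀ l, polar Q (y l) a' = 0 := fun l => by
    simp only [y, polar_sub_left, polar_smul_left, smul_eq_mul, horth,
      div_mul_cancel₀ _ hA']
    ring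
  have hys : ∀ l, InSpan Q b (y l) := fun l z hz => by
    simp only [y, polar_sub_left, polar_smul_left, ha z hz, ha' z hz, Triad.inSpan_b l z hz,
      smul_zero, sub_zero]
  obtain ⟨l, hl⟩ : ∃ l, Q (y l) ≠ 0 := by
    by_contra! hall
    have hexp : ∀ l, (0 : F) =
        1 - polar Q (b l) a * co3 Q b l a / polar Q a a -
          polar Q (b l) a' * co3 Q b l a' / polar Q a' a' := fun l => by
      have h1 : polar Q (y l) (y l) = polar Q (y l) (b l) := by
        conv_lhs => enter [3]; simp only [y]
        simp only [polar_sub_right, polar_smul_right, hya, hya', smul_zero, sub_zero]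
      rw [polar_self_mul, hall, mul_zero] at h1
      have h2 := congrArg ((polar Q (b l) (b l))⁻¹ * ·) h1
      simp only [y, polar_sub_left, polar_smul_left, smul_eq_mul, mul_zero, mul_sub,
        inv_mul_cancel₀ (hb.self_ne l), polar_comm Q a (b l), polar_comm Q a' (b l)] at h2
      rw [h2]
      simp only [co3_apply, polar_comm Q a (b l), polar_comm Q a' (b l)]
      ring
    have h3 := Finset.sum_congr rfl (fun l (_ : l ∈ (Finset.univ : Finset (Fin 3))) => hexp l)
    simp only [Finset.sum_const_zero, Finset.sum_sub_distrib, ← Finset.sum_div] at h3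
    have e1 : ∀ a, InSpan Q b a → ∑ l, polar Q (b l) a * co3 Q b l a = polar Q a a := fun a ha => by
      rw [hb.polar_eq ha]
      refine Finset.sum_congr rfl fun l _ => ?_
      simp only [co3_apply, polar_comm Q a (b l)]
      field_simp [hb.self_ne l]
    rw [e1 a ha, e1 a' ha', div_self hA, div_self hA'] at h3
    norm_num at h3
  have hT : Triad Q ![a, a', y l] := ⟨hb.two, hb.nondeg, by
    intro i j hij
    fin_cases i <;> fin_cases j <;>
      simp_all [polar_comm Q a' a, polar_comm Q a (y l), polar_comm Q a' (y l)], by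
    intro i; fin_cases i <;> simp [hQa, hQa', hl]⟩
  refine ⟨y l, hys l, hT, fun x hx z hz => ?_⟩
  have hind : LinearIndependent F ![a, a', y l] := by
    rw [Fintype.linearIndependent_iff]
    intro s hs i
    have := congrArg (co3 Q ![a, a', y l] i) hs
    simpa [map_sum, hT.co3_b] using this
  have hmem : ∀ w, InSpan Q b w → w ∈ Submodule.span F (Set.range b) := fun w hw => by
    rw [← hb.sum_co3 hw]
    exact Submodule.sum_mem _ fun m _ =>
      Submodule.smul_mem _ _ (Submodule.subset_span ⟨m, rfl⟩)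
  have hle : Submodule.span F (Set.range ![a, a', y l]) ≤ Submodule.span F (Set.range b) := by
    rw [Submodule.span_le]
    rintro _ ⟨i, rfl⟩
    fin_cases i
    exacts [hmem _ ha, hmem _ ha', hmem _ (hys l)]
  have heq := Submodule.eq_of_le_of_finrank_le hle (by
    rw [finrank_span_eq_card hind]
    exact (finrank_range_le_card (R := F) b).trans (by simp))
  have hker : Submodule.span F (Set.range ![a, a', y l]) ≤ LinearMap.ker (pf Q z) := by
    rw [Submodule.span_le]
    rintro _ ⟨i, rfl⟩
    show polar Q _ z = 0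
    rw [polar_comm]
    exact hz i
  exact hker (heq ▸ hmem x hx)

/-- A rotation fixing two orthogonal anisotropic vectors is trivial. -/
lemma eq_one_of_fix {g : GL ι F} (hg : g ∈ rot hb) {a a' : ι → F} (ha : InSpan Q b a)
    (ha' : InSpan Q b a') (hQa : Q a ≠ 0) (hQa' : Q a' ≠ 0) (horth : polar Q a a' = 0)
    (hfa : ap g a = a) (hfa' : ap g a' = a') : g = 1 := by
  obtain ⟨y, hys, hT, hspan⟩ := exists_third hb ha ha' hQa hQa' horth
  have hya : polar Q y a = 0 := by simpa using hT.orth 2 0 (by decide)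
  have hya' : polar Q y a' = 0 := by simpa using hT.orth 2 1 (by decide)
  have hl : Q y ≠ 0 := by simpa using hT.aniso 2
  have hperp' : ∀ x, Perp Q ![a, a', y] x → ap g x = x := fun x hx =>
    hg.2.1 x fun m => by rw [polar_comm]; exact hspan _ (Triad.inSpan_b m) x hx
  have hgy : InSpan Q ![a, a', y] (ap g y) := hspan _ (hb.inSpan_ap hg.1 hg.2.1 hys)
  set κ := co3 Q ![a, a', y] 2 (ap g y) with hκ
  have hgyκ : ap g y = κ • y := by
    conv_lhs => rw [← hT.sum_co3 hgy]
    have h0 : polar Q (ap g y) a = 0 := by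
      conv_lhs => rw [← hfa, polar_ap hg.1]
      exact hya
    have h1 : polar Q (ap g y) a' = 0 := by
      conv_lhs => rw [← hfa', polar_ap hg.1]
      exact hya'
    simp [Fin.sum_univ_three, hκ, co3_apply, h0, h1]
  have hκ2 : κ = 1 ∨ κ = -1 := by
    have := mem_isometryGroup_iff.mp hg.1 y
    rw [hgyκ, QuadraticMap.map_smul, smul_eq_mul] at this
    exact mul_self_eq_one_iff.1 (mul_right_cancel₀ hl (this.trans (one_mul _).symm))
  rcases hκ2 with hk | hk
  · refine hT.gl_eq hperp' (fun x _ => ap_one x) fun i => ?_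
    fin_cases i <;> simp [hfa, hfa', hgyκ, hk]
  · exfalso
    have hgr : g = rf Q y := by
      refine hT.gl_eq hperp' (fun x hx => ap_rf_fix (hx 2)) fun i => ?_
      fin_cases i
      · simpa [hfa] using (ap_rf_fix (show polar Q a y = 0 by rw [polar_comm]; exact hya)).symm
      · simpa [hfa'] using (ap_rf_fix (show polar Q a' y = 0 by rw [polar_comm]; exact hya')).symm
      · show ap g y = ap (rf Q y) y
        rw [hgyκ, hk, ap_rf, polar_self_mul, ← mul_assoc, mul_comm _ (2 : F), mul_assoc,
          inv_mul_cancel₀ hl, mul_one, two_smul]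
        module
    have h1 := hg.2.2
    rw [hgr, det_amat_rf hb hys hl] at h1
    exact hb.two (by linear_combination -h1)

/-- A rotation fixing a singular vector is a Siegel element. -/
theorem eq_sg_of_fix {g : GL ι F} (hg : g ∈ rot hb) (hg1 : g ≠ 1) {u : ι → F}
    (hu : InSpan Q b u) (hu0 : u ≠ 0) (hQu : Q u = 0) (hgu : ap g u = u) :
    ∃ (y : ι → F) (hy : polar Q u y = 0), InSpan Q b y ∧ Q y ≠ 0 ∧ g = sg Q u y hQu hy := by
  obtain ⟨m, hm⟩ : ∃ m, polar Q u (b m) ≠ 0 := by
    by_contra! hall
    refine hu0 ?_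
    rw [← hb.sum_co3 hu]
    exact Finset.sum_eq_zero fun l _ => by rw [co3_apply, hall, mul_zero, zero_smul]
  set β := polar Q u (b m)
  set f := β⁻¹ • b m - (Q (b m) / (β * β)) • u with hf
  have hfs : InSpan Q b f := fun z hz => by
    simp only [hf, polar_sub_left, polar_smul_left, Triad.inSpan_b m z hz, hu z hz, smul_zero,
      sub_zero]
  have huf : polar Q u f = 1 := by
    simp [hf, polar_smul_right, polar_self_mul, hQu, β, hm]
  have hQf : Q f = 0 := by
    simp only [hf, map_sub_eq, QuadraticMap.map_smul, polar_smul_left, polar_smul_right, hQu,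
      polar_comm Q (b m) u, smul_eq_mul]
    simp only [show polar Q u (b m) = β from rfl]
    field_simp
    ring
  set w := ap g f - f with hw
  have hugf : polar Q u (ap g f) = 1 := by
    conv_lhs => rw [← hgu, polar_ap hg.1]
    exact huf
  have huw : polar Q u w = 0 := by rw [hw, polar_sub_right, hugf, huf, sub_self]
  have hws : InSpan Q b w := fun z hz => by
    rw [hw, polar_sub_left, hb.inSpan_ap hg.1 hg.2.1 hfs z hz, hfs z hz, sub_zero]
  have hsgf : ap (sg Q u w hQu huw) f = ap g f := by
    have hgf : Q (f + w) = 0 := by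
      rw [hw, add_sub_cancel, mem_isometryGroup_iff.mp hg.1, hQf]
    rw [QuadraticMap.map_add (⇑Q), hQf, zero_add] at hgf
    rw [ap_sg, polar_comm Q f u, huf, one_smul, mul_one,
      show polar Q f w + Q w = 0 by rw [add_comm]; exact hgf, zero_smul, sub_zero, hw,
      add_sub_cancel]
  have hsrot : sg Q u w hQu huw ∈ rot hb := by
    have hmem : ∀ z (hz : polar Q u z = 0), InSpan Q b z →
        sg Q u z hQu hz ∈ Cfsg.isometryGroup F (⇑Q) ∧
          ∀ x, Perp Q b x → ap (sg Q u z hQu hz) x = x := fun z hz hzs =>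
      ⟨orthToGL_mem _, fun x hx => ap_sg_fix hQu hz (by rw [polar_comm]; exact hu x hx)
        (by rw [polar_comm]; exact hzs x hx)⟩
    refine ⟨(hmem w huw hws).1, (hmem w huw hws).2, ?_⟩
    set h := (2 : F)⁻¹ • w with hh
    have huh : polar Q u h = 0 := by rw [hh, polar_smul_right, huw, smul_zero]
    obtain ⟨h1, h2⟩ := hmem h huh (Triad.inSpan_smul _ hws)
    have hsq : amat Q b (sg Q u w hQu huw) =
        amat Q b (sg Q u h hQu huh) * amat Q b (sg Q u h hQu huh) := Matrix.ext fun l n => by
      have e : sg Q u w hQu huw = sg Q u h hQu huh * sg Q u h hQu huh := by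
        rw [sg_add']
        refine sg_congr rfl ?_ _ _
        rw [hh, ← add_smul, ← two_mul, mul_inv_cancel₀ hb.two, one_smul]
      simp only [amat, Matrix.of_apply, Matrix.mul_apply]
      conv_lhs => rw [e, ap_mul, ← hb.sum_co3 (hb.inSpan_ap h1 h2 (Triad.inSpan_b n))]
      simp only [Fin.sum_univ_three, ap_add, ap_smul, map_add, map_smul, smul_eq_mul]
      ring
    have hpm : (amat Q b (sg Q u h hQu huh)).det * (amat Q b (sg Q u h hQu huh)).det = 1 := by
      set B := amat Q b (sg Q u h hQu huh) with hB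
      set J : Matrix (Fin 3) (Fin 3) F := Matrix.diagonal fun l => polar Q (b l) (b l)
      have hiso : Bᵀ * J * B = J := Matrix.ext fun l n => by
        have hp := hb.polar_eq (x := ap (sg Q u h hQu huh) (b l))
          (hb.inSpan_ap h1 h2 (Triad.inSpan_b n))
        rw [polar_ap h1] at hp
        simp only [Matrix.mul_apply, Matrix.transpose_apply, J, Matrix.diagonal_apply,
          mul_ite, mul_zero, Finset.sum_ite_eq', Finset.mem_univ, if_true]
        rw [show ∑ k, B k l * polar Q (b k) (b k) * B k n =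
          ∑ k, co3 Q b k (ap (sg Q u h hQu huh) (b l)) * co3 Q b k (ap (sg Q u h hQu huh) (b n)) *
            polar Q (b k) (b k) from
          Finset.sum_congr rfl fun k _ => by simp only [hB, amat, Matrix.of_apply]; ring, ← hp]
        split_ifs with e
        · rw [e]
        · exact hb.orth l n e
      have := congrArg Matrix.det hiso
      rw [Matrix.det_mul, Matrix.det_mul, Matrix.det_transpose] at this
      refine mul_right_cancel₀ (show J.det ≠ 0 from ?_) (b := J.det) ?_
      · rw [Matrix.det_diagonal]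
        exact Finset.prod_ne_zero_iff.2 fun l _ => hb.self_ne l
      · linear_combination this
    rw [hsq, Matrix.det_mul, hpm]
  have hkfix : ap ((sg Q u w hQu huw)⁻¹ * g) u = u ∧ ap ((sg Q u w hQu huw)⁻¹ * g) f = f := by
    constructor
    · rw [ap_mul, hgu]
      conv_lhs => enter [2]; rw [← ap_sg_fix hQu huw (x := u)
        (by rw [polar_self_mul, hQu, mul_zero]) huw]
      rw [ap_inv_ap]
    · rw [ap_mul, ← hsgf, ap_inv_ap]
  have hQp : Q (u + f) = 1 := by rw [QuadraticMap.map_add (⇑Q), hQu, hQf, huf]; ring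
  have hQm : Q (u - f) = -1 := by rw [map_sub_eq, hQu, hQf, huf]; ring
  have hone : (sg Q u w hQu huw)⁻¹ * g = 1 :=
    eq_one_of_fix hb (mul_mem (inv_mem hsrot) hg) (a' := u - f) (Triad.inSpan_add hu hfs)
      (fun z hz => by rw [polar_sub_left, hu z hz, hfs z hz, sub_zero])
      (by rw [hQp]; exact one_ne_zero) (by rw [hQm]; exact neg_ne_zero.2 one_ne_zero)
      (by simp [polar_add_left, polar_sub_right, polar_self_mul, hQu, hQf, huf, polar_comm Q f u])
      (by rw [ap_add, hkfix.1, hkfix.2]) (by rw [ap_sub, hkfix.1, hkfix.2])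
  have hgsg : g = sg Q u w hQu huw := (inv_mul_eq_one.1 hone).symm
  refine ⟨w, huw, hws, fun hQw => hg1 ?_, hgsg⟩
  -- a singular direction gives the identity
  have hwu : polar Q w f • u = w := by
    obtain ⟨y, -, hT, hspan⟩ := exists_third hb (Triad.inSpan_add hu hfs)
      (a' := u - f) (fun z hz => by rw [polar_sub_left, hu z hz, hfs z hz, sub_zero])
      (by rw [hQp]; exact one_ne_zero) (by rw [hQm]; exact neg_ne_zero.2 one_ne_zero)
      (by simp [polar_add_left, polar_sub_right, polar_self_mul, hQu, hQf, huf, polar_comm Q f u])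
    have hds : InSpan Q b (w - polar Q w f • u) := fun z hz => by
      simp only [polar_sub_left, polar_smul_left, hws z hz, hu z hz, smul_zero, sub_zero]
    set d := w - polar Q w f • u with hd
    have hdu : polar Q d u = 0 := by
      simp [d, polar_sub_left, polar_smul_left, polar_comm Q w u, huw, polar_self_mul, hQu]
    have hdf : polar Q d f = 0 := by simp [d, polar_sub_left, polar_smul_left, huf]
    have hQd : Q d = 0 := by
      simp [d, map_sub_eq, QuadraticMap.map_smul, polar_smul_right, hQw, hQu, polar_comm Q w u,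
        huw]
    have e := hT.sum_co3 (hspan d hds)
    have h0 : co3 Q ![u + f, u - f, y] 0 d = 0 := by
      simp [co3_apply, polar_add_right, hdu, hdf]
    have h1 : co3 Q ![u + f, u - f, y] 1 d = 0 := by
      simp [co3_apply, polar_sub_right, hdu, hdf]
    simp only [Fin.sum_univ_three, h0, h1, zero_smul, zero_add] at e
    rw [← e, QuadraticMap.map_smul, smul_eq_mul, mul_eq_zero,
      or_iff_left (hT.aniso 2), mul_eq_zero, or_self] at hQd
    rw [hQd, zero_smul] at e
    exact (sub_eq_zero.1 e.symm).symm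
  rw [hgsg]
  refine gl_ext fun x => ?_
  rw [ap_sg, ap_one, hQw, ← hwu, polar_smul_right, smul_eq_mul]
  module

end CfsgLib.Geometric.Orth.Frame
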