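import Cfsg.Agent.Lib.Geometric.Orth.Frame.Order
import Mathlib.FieldTheory.Finite.Basic

/-!
A Siegel element in the space of a reflection vector and two frame vectors makes every vector of
the frame value in that space a reflection vector.
-/

namespace CfsgLib.Geometric.Orth.Frame

open Matrix QuadraticMap CfsgLib.ClassicalForms

variable {ι : Type} [Fintype ι] [DecidableEq ι] {F : Type*} [Field F] [Finite F]
variable {t : ℕ} {Q : QuadraticForm F (ι → F)} {c : F} {e : Fin t → ι → F}
variable {M : Subgroup (GL ι F)}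

/-- Two conditions `(c - q X²) / B = (c - q Y²) / B'` with non-zero sides have a solution. -/
lemma exists_conic (h2 : (2 : F) ≠ 0) (h3 : (3 : F) ≠ 0) (h5 : (5 : F) ≠ 0) (h7 : (7 : F) ≠ 0)
    {c q B B' : F} (hc : c ≠ 0) (hq : q ≠ 0) (hB : B ≠ 0) (hB' : B' ≠ 0) :
    ∃ X Y : F, B' * (c - q * (X * X)) = B * (c - q * (Y * Y)) ∧ c - q * (X * X) ≠ 0 := by
  classical
  by_cases hd : ∃ d₀, c - q * (d₀ * d₀) = 0
  · obtain ⟨d, hd⟩ := hd
    by_cases hBB : B = B'
    · subst hBB
      exact ⟨0, 0, rfl, by simpa using hc⟩
    have hd0 : d ≠ 0 := fun h => hc (by subst h; linear_combination hd)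
    have key : ∀ m : F, B * (m * m) - B' ≠ 0 → B' - B * m ≠ 0 → m ≠ 0 → m - 1 ≠ 0 →
        ∃ X Y : F, B' * (c - q * (X * X)) = B * (c - q * (Y * Y)) ∧ c - q * (X * X) ≠ 0 := by
      intro m hden hnum hm hm1
      set X' := 2 * d * (B' - B * m) / (B * (m * m) - B') with hX'
      have hX : X' * (B * (m * m) - B') = 2 * d * (B' - B * m) := div_mul_cancel₀ _ hden
      have hX0 : X' ≠ 0 := div_ne_zero (mul_ne_zero (mul_ne_zero h2 hd0) hnum) hden
      refine ⟨d + X', d + m * X', ?_, fun h0 => ?_⟩
      · linear_combination (B' - B) * hd + q * X' * hX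
      · have h' : X' * (X' + 2 * d) * q = 0 := by linear_combination hd - h0
        have h'' : X' + 2 * d = 0 :=
          (mul_eq_zero.1 ((mul_eq_zero.1 h').resolve_right hq)).resolve_left hX0
        have : 2 * d * (B * m * (m - 1)) = 0 := by
          linear_combination -hX + (B * (m * m) - B') * h''
        rcases mul_eq_zero.1 this with h | h
        · exact mul_ne_zero h2 hd0 h
        · rcases mul_eq_zero.1 h with h | h
          · exact mul_ne_zero hB hm h
          · exact hm1 h
    by_cases h9 : B * (3 * 3) - B' = 0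
    · refine key 2 (fun h => ?_) (fun h => ?_) h2 (by norm_num)
      · exact mul_ne_zero hB h5 (by linear_combination h9 - h)
      · exact mul_ne_zero hB h7 (by linear_combination h9 + h)
    by_cases hb3 : B' - B * 3 = 0
    · refine key 2 (fun h => ?_) (fun h => ?_) h2 (by norm_num)
      · exact hB (by linear_combination h + hb3)
      · exact hB (by linear_combination h - hb3)
    exact key 3 h9 hb3 h3 (by norm_num [h2])
  · push Not at hd
    have hchar : ringChar F ≠ 2 := fun h => h2 (by
      haveI h' := ringChar.charP F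
      rw [h] at h'
      exact CharTwo.two_eq_zero)
    have := Fintype.ofFinite F
    obtain ⟨a, b, hab⟩ := FiniteField.exists_root_sum_quadratic
      (f := Polynomial.C (B * q) * Polynomial.X ^ 2)
      (g := Polynomial.C (-(B' * q)) * Polynomial.X ^ 2 + Polynomial.C (-(c * (B - B'))))
      (Polynomial.degree_C_mul_X_pow 2 (mul_ne_zero hB hq))
      (by
        rw [Polynomial.degree_add_C (by
          rw [Polynomial.degree_C_mul_X_pow 2 (neg_ne_zero.2 (mul_ne_zero hB' hq))]; norm_num)]
        exact Polynomial.degree_C_mul_X_pow 2 (neg_ne_zero.2 (mul_ne_zero hB' hq)))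
      (by
        rcases (FiniteField.odd_card_of_char_ne_two hchar : Fintype.card F % 2 = 1) with h
        exact h)
    simp only [Polynomial.eval_add, Polynomial.eval_mul, Polynomial.eval_C, Polynomial.eval_pow,
      Polynomial.eval_X] at hab
    exact ⟨b, a, by linear_combination hab, hd b⟩

/-- With a Siegel element in the space, all vectors of value `c` there are reflection vectors. -/
theorem sphere_of_unip (h : Over Q c e M) (h3 : (3 : F) ≠ 0) (h5 : (5 : F) ≠ 0) (h7 : (7 : F) ≠ 0)
    {v : ι → F} (hv : Refl Q c e M v) {i j : Fin t} (hij : i ≠ j)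
    (hz : co Q c e i v * co Q c e i v + co Q c e j v * co Q c e j v ≠ 1)
    (hU : Unip Q c e M i j v) {x : ι → F}
    (hx : InSpan Q ![e i, e j, v - co Q c e i v • e i - co Q c e j v • e j] x) (hQx : Q x = c) :
    Refl Q c e M x := by
  have hf := h.frame
  have h2 := hf.two
  have hc := hf.ne_zero
  set α := co Q c e i v with hα
  set β := co Q c e j v with hβ
  set z := v - α • e i - β • e j with hzdef
  obtain ⟨u, y, hu0, hQy, hin, hu, hy⟩ := hU
  have hzv : z + α • e i + β • e j = v := by rw [hzdef]; abel
  have hzi : polar Q z (e i) = 0 := by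
    rw [hf.polar_e]
    simp [hzdef, map_sub, map_smul, hf.co_e, hij, ← hα]
  have hzj : polar Q z (e j) = 0 := by
    rw [hf.polar_e]
    simp [hzdef, map_sub, map_smul, hf.co_e, hij.symm, ← hβ]
  have hQz : Q z = c * (1 - α * α - β * β) := by
    have h1 : Q v = Q z + c * (α * α) + c * (β * β) := by
      conv_lhs => rw [← hzv]
      rw [QuadraticMap.map_add (⇑Q), QuadraticMap.map_add (⇑Q), QuadraticMap.map_smul,
        QuadraticMap.map_smul, hf.value, hf.value, polar_smul_right, polar_smul_right,
        polar_add_left, polar_smul_left, hzi, hzj, hf.orth i j hij]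
      simp only [smul_eq_mul]
      ring
    rw [hv.1] at h1
    linear_combination -h1
  have hQz0 : Q z ≠ 0 := by
    rw [hQz]
    exact mul_ne_zero hc fun h0 => hz (by linear_combination -h0)
  set b : Fin 3 → ι → F := ![e i, e j, z] with hbdef
  have hiz : polar Q (e i) z = 0 := by rw [polar_comm]; exact hzi
  have hjz : polar Q (e j) z = 0 := by rw [polar_comm]; exact hzj
  have hb : Triad Q b := ⟨h2, hf.nondeg, by
    intro l m hlm
    fin_cases l <;> fin_cases m <;>
      first
        | exact absurd rfl hlm
        | exact hf.orth i j hij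
        | exact hf.orth j i hij.symm
        | exact hiz
        | exact hjz
        | exact hzi
        | exact hzj, by
    intro l; fin_cases l <;> simp [hbdef, hf.value, hc, hQz0]⟩
  have hei : InSpan Q b (e i) := Triad.inSpan_b (b := b) 0
  have hej : InSpan Q b (e j) := Triad.inSpan_b (b := b) 1
  have hvs : InSpan Q b v := by
    rw [← hzv]
    exact Triad.inSpan_add (Triad.inSpan_add (Triad.inSpan_b (b := b) 2) (Triad.inSpan_smul _ hei))
      (Triad.inSpan_smul _ hej)
  have hQv : Q v ≠ 0 := by rw [hv.1]; exact hc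
  have hQu := hin.1
  have hKI := keep_isom h (e := e)
  -- a second centre
  obtain ⟨g, hg, hgS, hgu⟩ : ∃ g ∈ keep Q c e M, g ∈ rot hb ∧ polar Q u (ap g u) ≠ 0 := by
    have hexp := hb.sum_co3 hu
    simp only [Fin.sum_univ_three] at hexp
    set w := co3 Q b 2 u
    set ui := co3 Q b 0 u
    set uj := co3 Q b 1 u
    have hb0 : b 0 = e i := rfl
    have hb1 : b 1 = e j := rfl
    have hb2 : b 2 = z := rfl
    rw [hb0, hb1, hb2] at hexp
    have hQ0 : c * (ui * ui) + c * (uj * uj) + w * w * Q z = 0 := by
      have e0 := hQu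
      rw [← hexp] at e0
      simp only [QuadraticMap.map_add (⇑Q), QuadraticMap.map_smul, hf.value, polar_smul_right,
        polar_add_left, polar_smul_left, hiz, hjz, hf.orth i j hij, smul_eq_mul, mul_zero,
        add_zero] at e0
      linear_combination e0
    have hui : polar Q u (e i) = 2 * c * ui := by
      rw [← hexp, polar_add_left, polar_add_left, polar_smul_left, polar_smul_left,
        polar_smul_left, hzi, hf.orth j i hij.symm, polar_self_mul, hf.value]
      simp only [smul_eq_mul]
      ring
    have huj : polar Q u (e j) = 2 * c * uj := by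
      rw [← hexp, polar_add_left, polar_add_left, polar_smul_left, polar_smul_left,
        polar_smul_left, hzj, hf.orth i j hij, polar_self_mul, hf.value]
      simp only [smul_eq_mul]
      ring
    by_cases hw : w = 0
    · refine ⟨_, rf_pair_keep h (Refl.frame h i) hv,
        rf_mul_rf_mem_rot hb hei hvs (by rw [hf.value]; exact hc) hQv, fun h0 => ?_⟩
      have huv : polar Q u v = 2 * c * (α * ui + β * uj) := by
        have huz : polar Q u z = 0 := by
          rw [← hexp, hw, polar_add_left, polar_add_left, polar_smul_left, polar_smul_left,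
            polar_smul_left, hiz, hjz]
          simp
        rw [← hzv, polar_add_right, polar_add_right, polar_smul_right, polar_smul_right, huz, hui,
          huj]
        simp only [smul_eq_mul]
        ring
      rw [ap_mul, ap_rf v, huv, hv.1, ap_rf, polar_sub_left, polar_smul_left, hf.value, hui,
        hf.polar_e i v, ← hα, polar_sub_right, polar_sub_right, polar_smul_right, polar_smul_right,
        polar_self_mul, hQu, hui, huv] at h0
      simp only [smul_eq_mul] at h0
      field_simp [hc] at h0
      rw [hw] at hQ0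
      have hsq : uj * uj = -(ui * ui) := by
        refine mul_left_cancel₀ hc ?_
        linear_combination hQ0
      have h4 : 4 * c * (ui * ui) * (1 - α * α - β * β) = 0 := by
        linear_combination (-1 : F) * h0 - 4 * c * β * β * hsq
      have hii : ui = 0 := by
        by_contra hii
        exact mul_ne_zero (mul_ne_zero (mul_ne_zero (by
          rw [show (4 : F) = 2 * 2 by norm_num]; exact mul_ne_zero h2 h2) hc) (mul_ne_zero hii hii))
          (fun h0' => hz (by linear_combination -h0')) h4
      rw [hii] at hsq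
      have hjj : uj = 0 := by simpa using hsq
      exact hu0 (by rw [← hexp, hw, hii, hjj]; simp)
    · refine ⟨_, rf_pair_keep h (Refl.frame h i) (Refl.frame h j),
        rf_mul_rf_mem_rot hb hei hej (by rw [hf.value]; exact hc) (by rw [hf.value]; exact hc),
        fun h0 => ?_⟩
      rw [ap_mul, ap_rf (e j), huj, hf.value, ap_rf, polar_sub_left, polar_smul_left,
        hf.orth j i hij.symm, hui, hf.value, polar_sub_right, polar_sub_right, polar_smul_right,
        polar_smul_right, polar_self_mul, hQu, hui, huj] at h0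
      simp only [smul_eq_mul, mul_zero, sub_zero] at h0
      field_simp [hc] at h0
      have : 4 * (w * w * Q z) = 0 := by linear_combination h0 + 4 * hQ0
      exact mul_ne_zero (by rw [show (4 : F) = 2 * 2 by norm_num]; exact mul_ne_zero h2 h2)
        (mul_ne_zero (mul_ne_zero hw hw) hQz0) this
  -- a common direction
  set u' := (polar Q u (ap g u))⁻¹ • ap g u with hu'def
  have hu' : InSpan Q b u' := Triad.inSpan_smul _ (hb.inSpan_ap hgS.1 hgS.2.1 hu)
  have huu : polar Q u u' = 1 := by
    rw [hu'def, polar_smul_right, smul_eq_mul, inv_mul_cancel₀ hgu]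
  have hQu' : Q u' = 0 := by
    rw [hu'def, QuadraticMap.map_smul, mem_isometryGroup_iff.mp hgS.1, hQu, smul_zero]
  have hin' : Inn Q (keep Q c e M) u' (ap g y) := (hin.conj hKI hg).smul_centre _
  set y₀ := y - polar Q y u' • u with hy₀
  have hin₀ : Inn Q (keep Q c e M) u y₀ := hin.sub (Inn.centre hQu _)
  have hy₀u : polar Q y₀ u = 0 := by rw [polar_comm]; exact hin₀.2.1
  have hy₀u' : polar Q y₀ u' = 0 := by
    simp [hy₀, polar_sub_left, polar_smul_left, huu]
  have hy₀s : InSpan Q b y₀ := fun w hw => by
    rw [hy₀, polar_sub_left, polar_smul_left, hy w hw, hu w hw, smul_zero, sub_zero]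
  have hQy₀ : Q y₀ ≠ 0 := by
    have : Q y₀ = Q y := by
      simp [hy₀, map_sub_eq, QuadraticMap.map_smul, polar_smul_right, hQu, polar_comm Q y u,
        hin.2.1]
    rwa [this]
  have hQp : Q (u + u') = 1 := by rw [QuadraticMap.map_add (⇑Q), hQu, hQu', huu]; ring
  have hQm : Q (u - u') = -1 := by rw [map_sub_eq, hQu, hQu', huu]; ring
  obtain ⟨y₁, -, hT, hspan⟩ := exists_third hb (Triad.inSpan_add hu hu') (a' := u - u')
    (fun w hw => by rw [polar_sub_left, hu w hw, hu' w hw, sub_zero])
    (by rw [hQp]; exact one_ne_zero) (by rw [hQm]; exact neg_ne_zero.2 one_ne_zero)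
    (by simp [polar_add_left, polar_sub_right, polar_self_mul, hQu, hQu', huu, polar_comm Q u' u])
  have hline : ∀ w, InSpan Q b w → polar Q w u = 0 → polar Q w u' = 0 →
      w = co3 Q ![u + u', u - u', y₁] 2 w • y₁ := fun w hw h1 h1' => by
    conv_lhs => rw [← hT.sum_co3 (hspan w hw)]
    simp [Fin.sum_univ_three, co3_apply, polar_add_right, polar_sub_right, h1, h1']
  set κ := co3 Q ![u + u', u - u', y₁] 2 y₀
  have hy₀1 : y₀ = κ • y₁ := hline y₀ hy₀s hy₀u hy₀u'
  have hκ : κ ≠ 0 := fun h0 => hQy₀ (by rw [hy₀1, h0, zero_smul, QuadraticMap.map_zero])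
  have hin₀' : Inn Q (keep Q c e M) u' y₀ := by
    set y' := ap g y - polar Q (ap g y) u • u'
    have hy' : Inn Q (keep Q c e M) u' y' := hin'.sub (Inn.centre hQu' _)
    have hQy' : Q y' ≠ 0 := by
      have : Q y' = Q y := by
        simp [y', map_sub_eq, QuadraticMap.map_smul, polar_smul_right, hQu',
          mem_isometryGroup_iff.mp hgS.1, polar_comm Q (ap g y) u', hin'.2.1]
      rwa [this]
    have h1 : polar Q y' u = 0 := by
      simp [y', polar_sub_left, polar_smul_left, polar_comm Q u' u, huu]
    have h1' : polar Q y' u' = 0 := by rw [polar_comm]; exact hy'.2.1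
    have e' := hline y' (fun w hw => by
      simp only [y', polar_sub_left, polar_smul_left, hb.inSpan_ap hgS.1 hgS.2.1 hy w hw,
        hu' w hw, smul_zero, sub_zero]) h1 h1'
    set μ := co3 Q ![u + u', u - u', y₁] 2 y'
    have hμ : μ ≠ 0 := fun h0 => hQy' (by rw [e', h0, zero_smul, QuadraticMap.map_zero])
    have := hy'.smul (κ * μ⁻¹)
    rwa [e', smul_smul, mul_assoc, inv_mul_cancel₀ hμ, mul_one, ← hy₀1] at this
  -- coordinates
  set q := Q y₀ with hq
  let pt : F → F → F → ι → F := fun a a' d => a • u + a' • u' + d • y₀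
  have hQpt : ∀ a a' d, Q (pt a a' d) = a * a' + q * (d * d) := fun a a' d => by
    simp [pt, QuadraticMap.map_add (⇑Q), QuadraticMap.map_smul, polar_smul_right, polar_add_left,
      polar_smul_left, polar_comm Q u y₀, polar_comm Q u' y₀, hy₀u, hy₀u', huu, hQu, hQu', ← hq]
    ring
  have hdec : ∀ w, InSpan Q b w → w = pt (polar Q w u') (polar Q w u)
      ((2 * q)⁻¹ * polar Q w y₀) := fun w hw => by
    set d := w - pt (polar Q w u') (polar Q w u) ((2 * q)⁻¹ * polar Q w y₀)
    have h2q : (2 * q : F) ≠ 0 := mul_ne_zero h2 hQy₀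
    have hd : InSpan Q b d := fun r hr => by
      simp only [d, pt, polar_sub_left, polar_add_left, polar_smul_left, hw r hr, hu r hr,
        hu' r hr, hy₀s r hr, smul_zero, add_zero, sub_zero]
    have h1 : polar Q d u = 0 := by
      simp [d, pt, polar_sub_left, polar_add_left, polar_smul_left, polar_self_mul, hQu,
        polar_comm Q u' u, huu, hy₀u]
    have h1' : polar Q d u' = 0 := by
      simp [d, pt, polar_sub_left, polar_add_left, polar_smul_left, polar_self_mul, hQu',
        huu, hy₀u']
    have h1'' : polar Q d y₀ = 0 := by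
      simp only [d, pt, polar_sub_left, polar_add_left, polar_smul_left, polar_self_mul,
        polar_comm Q u y₀, polar_comm Q u' y₀, hy₀u, hy₀u', ← hq, smul_eq_mul]
      field_simp
      ring
    have e' := hline d hd h1 h1'
    rw [hy₀1, polar_smul_right, e', polar_smul_left, polar_self_mul, smul_eq_mul, smul_eq_mul,
      mul_eq_zero, or_iff_right hκ, mul_eq_zero,
      or_iff_left (mul_ne_zero h2 (by simpa using hT.aniso 2))] at h1''
    rw [h1'', zero_smul] at e'
    exact sub_eq_zero.1 e'
  let R : F → F → F → Prop := fun a a' d => Refl Q c e M (pt a a' d)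
  have hU1 : ∀ {a a' d}, R a a' d → ∀ s,
      R (a - (2 * q * d * s + s * s * q * a')) a' (d + a' * s) := fun {a a' d} hR s => by
    have := ((hin₀.smul s).mem hQu (hin₀.smul s).2.1).2.1 _ hR
    convert this using 1
    rw [ap_sg]
    simp [pt, polar_add_left, polar_smul_left, polar_smul_right, QuadraticMap.map_smul,
      polar_self_mul, hQu, polar_comm Q u' u, huu, hy₀u, polar_comm Q u y₀, polar_comm Q u' y₀,
      hy₀u', ← hq]
    module
  have hU2 : ∀ {a a' d}, R a a' d → ∀ s,
      R a (a' - (2 * q * d * s + s * s * q * a)) (d + a * s) := fun {a a' d} hR s => by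
    have := ((hin₀'.smul s).mem hQu' (hin₀'.smul s).2.1).2.1 _ hR
    convert this using 1
    rw [ap_sg]
    simp [pt, polar_add_left, polar_smul_left, polar_smul_right, QuadraticMap.map_smul,
      polar_self_mul, hQu', huu, hy₀u', polar_comm Q u y₀, polar_comm Q u' y₀, hy₀u, ← hq]
    module
  have hval : ∀ {a a' d}, R a a' d → a * a' + q * (d * d) = c := fun {a a' d} hR => by
    rw [← hQpt]; exact hR.1
  have hsame : ∀ {a a' d}, R a a' d → a' ≠ 0 → ∀ a₁ d₁, a₁ * a' + q * (d₁ * d₁) = c →
      R a₁ a' d₁ := fun {a a' d} hR ha' a₁ d₁ h₁ => by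
    have := hU1 hR ((d₁ - d) / a')
    rw [mul_div_cancel₀ _ ha', add_sub_cancel] at this
    have h' := hval this
    convert this using 1
    exact mul_right_cancel₀ ha' (by linear_combination h₁ - h')
  obtain ⟨a₀, b₀, d₀, hR₀, hb₀⟩ : ∃ a a' d, R a a' d ∧ a' ≠ 0 := by
    obtain ⟨w, hw, hws, hne⟩ : ∃ w, Refl Q c e M w ∧ InSpan Q b w ∧
        (polar Q w u ≠ 0 ∨ polar Q w u' ≠ 0) := by
      by_contra! hall
      obtain ⟨a1, a2⟩ := hall _ (Refl.frame h i) hei
      obtain ⟨b1, b2⟩ := hall _ (Refl.frame h j) hej
      have hi' := hdec _ hei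
      have hj' := hdec _ hej
      rw [a1, a2] at hi'
      rw [b1, b2] at hj'
      simp only [pt, zero_smul, zero_add] at hi' hj'
      have := hf.orth i j hij
      rw [hi', hj', polar_smul_left, polar_smul_right, polar_self_mul, smul_eq_mul,
        smul_eq_mul] at this
      rcases mul_eq_zero.1 this with h0 | h0
      · have := hf.value i
        rw [hi', h0, zero_smul, QuadraticMap.map_zero] at this
        exact hc this.symm
      rcases mul_eq_zero.1 h0 with h0 | h0
      · have := hf.value j
        rw [hj', h0, zero_smul, QuadraticMap.map_zero] at this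
        exact hc this.symm
      · exact mul_ne_zero h2 hQy₀ h0
    have hR : R (polar Q w u') (polar Q w u) ((2 * q)⁻¹ * polar Q w y₀) := by
      show Refl Q c e M _
      rw [← hdec w hws]; exact hw
    by_cases hwu : polar Q w u = 0
    · rw [hwu] at hR
      have ha := hne.resolve_left (not_not.2 hwu)
      set d := (2 * q)⁻¹ * polar Q w y₀
      set a := polar Q w u'
      by_cases h1 : 2 * d + a = 0
      · refine ⟨_, _, _, hU2 hR 2, fun h0 => ?_⟩
        have : 2 * q * a = 0 := by linear_combination -h0 - 2 * q * h1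
        exact mul_ne_zero (mul_ne_zero h2 hQy₀) ha this
      · refine ⟨_, _, _, hU2 hR 1, fun h0 => ?_⟩
        exact mul_ne_zero hQy₀ h1 (by linear_combination -h0)
    · exact ⟨_, _, _, hR, hwu⟩
  have hall : ∀ a a' d, a' ≠ 0 → a * a' + q * (d * d) = c → R a a' d := fun a a' d ha' hv' => by
    obtain ⟨X, Y, hXY, hX⟩ := exists_conic h2 h3 h5 h7 hc hQy₀ hb₀ ha'
    have hA : (c - q * (X * X)) / b₀ * b₀ + q * (X * X) = c := by
      rw [div_mul_cancel₀ _ hb₀]; ring
    have hA0 : (c - q * (X * X)) / b₀ ≠ 0 := div_ne_zero hX hb₀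
    have h1 := hU2 (hsame hR₀ hb₀ _ X hA) ((Y - X) / ((c - q * (X * X)) / b₀))
    rw [mul_div_cancel₀ _ hA0, add_sub_cancel] at h1
    have h1' := hval h1
    refine hsame (a := (c - q * (X * X)) / b₀) (d := Y) ?_ ha' a d hv'
    convert h1 using 1
    refine mul_left_cancel₀ hA0 ?_
    have : (c - q * (X * X)) / b₀ * a' = c - q * (Y * Y) := by
      rw [div_mul_eq_mul_div, div_eq_iff hb₀]
      linear_combination hXY
    linear_combination this - h1'
  have hzero : ∀ a d, a ≠ 0 → q * (d * d) = c → R a 0 d := fun a d ha hv' => by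
    have h1 := hU2 (hall a (c / a) 0 (div_ne_zero hc ha) (by rw [mul_div_cancel₀ _ ha]; ring))
      (d / a)
    rw [zero_add, mul_div_cancel₀ _ ha] at h1
    have h1' := hval h1
    convert h1 using 1
    refine mul_left_cancel₀ ha ?_
    linear_combination hv' - h1'
  show Refl Q c e M x
  rw [hdec x hx]
  have hv' := hQx
  rw [hdec x hx, hQpt] at hv'
  set a := polar Q x u'
  set a' := polar Q x u
  set d := (2 * q)⁻¹ * polar Q x y₀
  by_cases ha' : a' = 0
  · rw [ha', mul_zero, zero_add] at hv'
    rw [ha']
    by_cases ha : a = 0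
    · have hd : d ≠ 0 := fun h0 => hc (by rw [← hv', h0]; ring)
      have := hU1 (hzero 1 d one_ne_zero hv') ((2 * q * d)⁻¹)
      rw [mul_inv_cancel₀ (mul_ne_zero (mul_ne_zero h2 hQy₀) hd)] at this
      simpa [ha, R] using this
    · exact hzero a d ha hv'
  · exact hall a a' d ha' hv'

end CfsgLib.Geometric.Orth.Frame
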