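import Cfsg.Agent.Lib.Geometric.Orth.Frame.Short
import Cfsg.Agent.Lib.Geometric.Orth.Frame.Sphere

/-!
A reflection vector with three non-zero coordinates gives two of nearly the same support with a
singular difference.
-/

namespace CfsgLib.Geometric.Orth.Frame

open Matrix QuadraticMap CfsgLib.ClassicalForms

variable {ι : Type} [Fintype ι] [DecidableEq ι] {F : Type*} [Field F] [Finite F]
variable {t : ℕ} {Q : QuadraticForm F (ι → F)} {c : F} {e : Fin t → ι → F}
variable {M : Subgroup (GL ι F)}

/-- The support. -/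
noncomputable def supp (Q : QuadraticForm F (ι → F)) (c : F) (e : Fin t → ι → F) (v : ι → F) :
    Finset (Fin t) := by
  classical exact Finset.univ.filter fun k => co Q c e k v ≠ 0

omit [Fintype ι] [DecidableEq ι] [Finite F] in
lemma mem_supp {v : ι → F} {k : Fin t} : k ∈ supp Q c e v ↔ co Q c e k v ≠ 0 := by
  classical simp [supp]

/-- Two allowed values summing to one are halves. -/
lemma allowed_pair {x : F} (h2 : (2 : F) ≠ 0) (hx : x ≠ 0) (hy : 1 - x ≠ 0) (h2x : 2 * x ≠ 1)
    (hA : Allowed x) (hB : Allowed (1 - x)) : False := by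
  rcases hA with a | a | a | a <;> rcases hB with b | b | b | b
  all_goals first
    | exact hy (by linear_combination -a)
    | exact hx (by linear_combination -b)
    | exact h2x a
    | exact h2x (by linear_combination -b)
    | exact h2 (by linear_combination a + b)
    | exact one_ne_zero (α := F) (by linear_combination b - (4 * x - 4) * a)
    | exact one_ne_zero (α := F) (by linear_combination a + 4 * x * b)
    | skip
  have h4 : (2 * 2) * (2 * x - 1) = 0 := by linear_combination a - b
  exact h2x (sub_eq_zero.1 ((mul_eq_zero.1 h4).resolve_left (mul_ne_zero h2 h2)))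

/-- Twice the square of a root is not allowed. -/
lemma root_self {x : F} (h2 : (2 : F) ≠ 0) (h3 : (3 : F) ≠ 0) (hx : x ≠ 1)
    (hr : 16 * x * x - 12 * x + 1 = 0)
    (hk : 4 * (4 * x * x) = 1 ∨ 2 * (4 * x * x) = 1 ∨
      16 * (4 * x * x) * (4 * x * x) - 12 * (4 * x * x) + 1 = 0) : False := by
  rcases hk with k | k | k
  · have h12 : 12 * x - 2 = 0 := by linear_combination k - hr
    have h5 : (5 : F) = 0 := by linear_combination (12 * x + 2) * h12 - 9 * k
    have : (x - 1) * (x - 1) = 0 := by linear_combination hr - (3 * x * x - 2 * x) * h5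
    exact hx (sub_eq_zero.1 (mul_self_eq_zero.1 this))
  · have h4 : 3 * (4 * x - 1) = 0 := by linear_combination 2 * k - hr
    have h4' := (mul_eq_zero.1 h4).resolve_left h3
    exact one_ne_zero (α := F) (by linear_combination -hr + (4 * x - 2) * h4')
  · have h48 : (2 * 2) * (12 * x - 1) = 0 := by
      linear_combination k - (16 * x * x + 12 * x + 5) * hr
    have h12 := (mul_eq_zero.1 h48).resolve_left (mul_ne_zero h2 h2)
    exact one_ne_zero (α := F) (by linear_combination 9 * hr - (12 * x - 8) * h12)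

variable (h : Over Q c e M)
include h

omit [Finite F] in
/-- Over at most seven elements every non-zero square is allowed. -/
lemma allowed_small (hp : (3 : F) = 0 ∨ (5 : F) = 0 ∨ (7 : F) = 0) {a : F} (ha : a ≠ 0) :
    Allowed (a * a) := by
  obtain ⟨k, rfl⟩ := h.surj a
  have hred : ∀ m : ℕ, (m : F) = 0 → (k : F) = ((k % m : ℕ) : F) := fun m hm => by
    conv_lhs => rw [← Nat.mod_add_div k m]
    rw [Nat.cast_add, Nat.cast_mul, hm, zero_mul, add_zero]
  rcases hp with h3 | h5 | h7
  · have e1 := hred 3 (by exact_mod_cast h3)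
    rw [e1] at ha ⊢
    have hlt : k % 3 < 3 := Nat.mod_lt _ (by norm_num)
    interval_cases k % 3
    · simp at ha
    · exact Or.inl (by norm_num)
    · exact Or.inl (by push_cast; linear_combination h3)
  · have e1 := hred 5 (by exact_mod_cast h5)
    rw [e1] at ha ⊢
    have hlt : k % 5 < 5 := Nat.mod_lt _ (by norm_num)
    interval_cases k % 5
    · simp at ha
    · exact Or.inl (by norm_num)
    · exact Or.inr (Or.inl (by push_cast; linear_combination 3 * h5))
    · exact Or.inr (Or.inl (by push_cast; linear_combination 7 * h5))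
    · exact Or.inl (by push_cast; linear_combination 3 * h5)
  · have e1 := hred 7 (by exact_mod_cast h7)
    rw [e1] at ha ⊢
    have hlt : k % 7 < 7 := Nat.mod_lt _ (by norm_num)
    interval_cases k % 7
    · simp at ha
    · exact Or.inl (by norm_num)
    · exact Or.inr (Or.inr (Or.inl (by push_cast; linear_combination h7)))
    · exact Or.inr (Or.inl (by push_cast; linear_combination 5 * h7))
    · exact Or.inr (Or.inl (by push_cast; linear_combination 9 * h7))
    · exact Or.inr (Or.inr (Or.inl (by push_cast; linear_combination 7 * h7)))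
    · exact Or.inl (by push_cast; linear_combination 5 * h7)

/-- A full circle of reflection vectors gives everything. -/
lemma omega_le_of_circle (hn : 5 ≤ Fintype.card ι) (h3 : (3 : F) ≠ 0) (h5 : (5 : F) ≠ 0)
    (h7 : (7 : F) ≠ 0) {i j : Fin t} (hij : i ≠ j) {α β : F} (hα : α ≠ 0) (hβ : β ≠ 0)
    (hab : α * α + β * β = 1) (hna : ¬ Allowed (α * α))
    (hx : Refl Q c e M (α • e i + β • e j)) : Cfsg.Geo.omegaGL (⇑Q) ≤ M := by
  classical
  have hf := h.frame
  obtain ⟨k, hk⟩ := exists_outside h ({i, j} : Finset (Fin t))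
    (lt_of_le_of_lt Finset.card_le_two (by norm_num))
  simp only [Finset.mem_insert, Finset.mem_singleton, not_or] at hk
  obtain ⟨hki, hkj⟩ := hk
  obtain ⟨m, hm⟩ := exists_outside h ({i, j, k} : Finset (Fin t))
    (lt_of_le_of_lt Finset.card_le_three (by norm_num))
  simp only [Finset.mem_insert, Finset.mem_singleton, not_or] at hm
  obtain ⟨hmi, hmj, hmk⟩ := hm
  -- the same vector on other pairs of coordinates
  have hperm : ∀ l, l ≠ i → l ≠ j → Refl Q c e M (α • e j + β • e l) := by
    intro l hli hlj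
    obtain ⟨w, hw, hwco⟩ := hx.swap_pair h (a := j) (b := l) (a' := i) (b' := l)
      (Ne.symm hlj) (Ne.symm hli)
    convert hw using 1
    refine hf.ext fun r => ?_
    rw [hwco, map_add, map_smul, map_smul, map_add, map_smul, map_smul, hf.co_e, hf.co_e,
      hf.co_e, hf.co_e]
    by_cases hrj : r = j
    · subst hrj
      rw [Equiv.swap_apply_left, Equiv.swap_apply_right]
      simp [hij, Ne.symm hlj]
    by_cases hrl : r = l
    · subst hrl
      rw [Equiv.swap_apply_right, Equiv.swap_apply_of_ne_of_ne hij.symm (Ne.symm hlj)]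
      simp [hlj, hij.symm]
    rw [Equiv.swap_apply_of_ne_of_ne hrj hrl]
    by_cases hri : r = i
    · subst hri
      rw [Equiv.swap_apply_left]
      simp [hij, Ne.symm hlj, Ne.symm hli, hlj, hli]
    · rw [Equiv.swap_apply_of_ne_of_ne hri hrl]
      simp [hrj, hrl, hri]
  have hc1 : 2 * (α * α) ≠ 1 := fun h' => hna (Or.inr (Or.inr (Or.inl h')))
  set x₂ := α • e j + β • e k
  set v := ap (rf Q x₂) (α • e i + β • e j) with hv
  have hvR : Refl Q c e M v := hx.reflect h (hperm k hki hkj)
  have hv' : v = α • e i + (β - 2 * (α * α) * β) • e j - (2 * α * (β * β)) • e k := by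
    rw [hv, ap_rf, (hperm k hki hkj).1]
    simp only [x₂, polar_add_left, polar_smul_left, polar_add_right, polar_smul_right,
      hf.orth i j hij, hf.orth i k (Ne.symm hki), polar_self_mul, hf.value, hf.orth j k (Ne.symm hkj),
      smul_eq_mul, mul_zero, add_zero, zero_add]
    match_scalars <;> field_simp [hf.ne_zero] <;> ring
  have hi : co Q c e i v = α := by
    rw [hv']; simp [map_add, map_sub, map_smul, hf.co_e, hij, Ne.symm hki]
  have hj : co Q c e j v = β - 2 * (α * α) * β := by
    rw [hv']; simp [map_add, map_sub, map_smul, hf.co_e, hij.symm, Ne.symm hkj]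
  have hz : α * α + (β - 2 * (α * α) * β) * (β - 2 * (α * α) * β) ≠ 1 := fun h' => by
    have : 4 * ((α * α) * ((β * β) * (β * β))) = 0 := by
      linear_combination (4 * (α * α) * (β * β) + 1) * hab - h' +
        (0 : F) * hab
    exact mul_ne_zero (by rw [show (4 : F) = 2 * 2 by norm_num]; exact mul_ne_zero hf.two hf.two)
      (mul_ne_zero (mul_ne_zero hα hα) (mul_ne_zero (mul_ne_zero hβ hβ) (mul_ne_zero hβ hβ))) this
  have hU : Unip Q c e M i j v := by
    refine (allowed_or_unip h hvR hij (by rwa [hi]) ?_ (by rwa [hi, hj])).resolve_left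
      (by rwa [hi])
    rw [hj, show β - 2 * (α * α) * β = β * (1 - 2 * (α * α)) by ring]
    exact mul_ne_zero hβ (sub_ne_zero.2 (Ne.symm hc1))
  have hsph : ∀ y, InSpan Q ![e i, e j, v - co Q c e i v • e i - co Q c e j v • e j] y → Q y = c →
      Refl Q c e M y := fun y hy hQy =>
    sphere_of_unip h h3 h5 h7 hvR hij (by rwa [hi, hj]) hU hy hQy
  -- a vector of the triple pairing to one with a circle vector
  obtain ⟨p, r, hpr⟩ := exists_combination hf.ne_zero hf.ne_zero hf.two (c * (1 - α⁻¹ * α⁻¹))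
  set y := p • e i + α⁻¹ • e j + r • e k with hy
  have hQy : Q y = c := by
    rw [hy]
    simp only [QuadraticMap.map_add (⇑Q), QuadraticMap.map_smul, hf.value, polar_smul_right,
      polar_add_left, polar_smul_left, hf.orth i j hij, hf.orth i k (Ne.symm hki),
      hf.orth j k (Ne.symm hkj), smul_eq_mul, mul_zero, add_zero]
    linear_combination hpr
  have hek : InSpan Q ![e i, e j, v - co Q c e i v • e i - co Q c e j v • e j] (e k) := by
    have e0 : v - co Q c e i v • e i - co Q c e j v • e j = (-(2 * α * (β * β))) • e k := by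
      rw [hi, hj, hv']; module
    have hne : (-(2 * α * (β * β))) ≠ 0 :=
      neg_ne_zero.2 (mul_ne_zero (mul_ne_zero hf.two hα) (mul_ne_zero hβ hβ))
    have h0 := Triad.inSpan_smul (-(2 * α * (β * β)))⁻¹
      (Triad.inSpan_b (Q := Q)
        (b := ![e i, e j, v - co Q c e i v • e i - co Q c e j v • e j]) 2)
    rwa [show (![e i, e j, v - co Q c e i v • e i - co Q c e j v • e j] 2) =
      (-(2 * α * (β * β))) • e k from e0, inv_smul_smul₀ hne] at h0
  have hyR : Refl Q c e M y := hsph y
    (Triad.inSpan_add (Triad.inSpan_add (Triad.inSpan_smul _ (Triad.inSpan_b 0))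
      (Triad.inSpan_smul _ (Triad.inSpan_b 1))) (Triad.inSpan_smul _ hek)) hQy
  have hclose : Close Q c e M {i, j, k, m} := by
    refine ⟨α • e j + β • e m, y, hperm m hmi hmj, hyR, ?_, fun heq => ?_, fun l hl => ?_⟩
    · simp [hy, polar_add_left, polar_smul_left, polar_add_right, polar_smul_right, polar_self_mul,
        hf.value, hf.orth j i hij.symm, hf.orth j k (Ne.symm hkj), hf.orth m i hmi, hf.orth m j hmj,
        hf.orth m k hmk, hα]
    · have := congrArg (co Q c e m) heq
      simp [hy, map_add, map_smul, hf.co_e, hmi, hmj, hmk] at this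
      exact hβ this.symm
    · simp only [Finset.mem_insert, Finset.mem_singleton, not_or] at hl
      simp [hy, map_add, map_smul, hf.co_e, hl.1, hl.2.1, hl.2.2.1, hl.2.2.2]
  obtain ⟨u, hu⟩ := short_of_close h hclose (Finset.card_le_four.trans (by norm_num))
  exact omega_le_of_short h hn hu

variable (hn : 5 ≤ Fintype.card ι) (hΩ : ¬ Cfsg.Geo.omegaGL (⇑Q) ≤ M)
include hn hΩ

/-- Squared coordinates are allowed. -/
lemma allowed_of_not {v : ι → F} (hv : Refl Q c e M v) {i j : Fin t} (hij : i ≠ j)
    (hi : co Q c e i v ≠ 0) (hj : co Q c e j v ≠ 0)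
    (hz : co Q c e i v * co Q c e i v + co Q c e j v * co Q c e j v ≠ 1) :
    Allowed (co Q c e i v * co Q c e i v) := by
  by_contra hna
  have hf := h.frame
  have h2 := hf.two
  by_cases h3 : (3 : F) = 0
  · exact hna (allowed_small h (Or.inl h3) hi)
  by_cases h5 : (5 : F) = 0
  · exact hna (allowed_small h (Or.inr (Or.inl h5)) hi)
  by_cases h7 : (7 : F) = 0
  · exact hna (allowed_small h (Or.inr (Or.inr h7)) hi)
  have hU := (allowed_or_unip h hv hij hi hj hz).resolve_left hna
  -- a good point of the circle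
  obtain ⟨σ, hσ0, hσ1, hσm, hσr⟩ : ∃ σ : F, σ ≠ 0 ∧ σ * σ - 1 ≠ 0 ∧ σ * σ + 1 ≠ 0 ∧
      σ * σ * (σ * σ) - 6 * (σ * σ) + 1 ≠ 0 :=
    ⟨2, h2, fun e' => h3 (by linear_combination e'), fun e' => h5 (by linear_combination e'),
      fun e' => h7 (by linear_combination -e')⟩
  have hs1 : σ * σ + 1 ≠ 0 := hσm
  set α := (σ * σ - 1) / (σ * σ + 1) with hαd
  set β := 2 * σ / (σ * σ + 1) with hβd
  have hα : α ≠ 0 := div_ne_zero hσ1 hs1
  have hβ : β ≠ 0 := div_ne_zero (mul_ne_zero h2 hσ0) hs1
  have hab : α * α + β * β = 1 := by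
    rw [hαd, hβd, div_mul_div_comm, div_mul_div_comm, ← add_div,
      div_eq_one_iff_eq (mul_ne_zero hs1 hs1)]
    ring
  have h2a : 2 * (α * α) ≠ 1 := by
    rw [hαd]; intro h'
    rw [div_mul_div_comm, ← mul_div_assoc, div_eq_one_iff_eq (mul_ne_zero hs1 hs1)] at h'
    exact hσr (by linear_combination h')
  have hR : ∀ a b : F, a * a + b * b = 1 → Refl Q c e M (a • e i + b • e j) := by
    intro a b hab'
    refine sphere_of_unip h h3 h5 h7 hv hij hz hU
      (Triad.inSpan_add (Triad.inSpan_smul _ (Triad.inSpan_b 0))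
        (Triad.inSpan_smul _ (Triad.inSpan_b 1))) ?_
    rw [QuadraticMap.map_add (⇑Q), QuadraticMap.map_smul, QuadraticMap.map_smul, hf.value, hf.value,
      polar_smul_right, polar_smul_left, hf.orth i j hij]
    simp only [smul_eq_mul]
    linear_combination c * hab'
  by_cases hnA : Allowed (α * α)
  swap
  · exact hΩ (omega_le_of_circle h hn h3 h5 h7 hij hα hβ hab hnA (hR α β hab))
  refine hΩ (omega_le_of_circle h hn h3 h5 h7 hij hβ hα (by rw [add_comm]; exact hab) ?_
    (hR β α (by rw [add_comm]; exact hab)))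
  intro hnB
  rw [show β * β = 1 - α * α by linear_combination hab] at hnB
  exact allowed_pair h2 (mul_ne_zero hα hα)
    (fun h' => hβ (mul_self_eq_zero.1 (by linear_combination hab + h'))) h2a hnA hnB

omit hn hΩ [Finite F] in
/-- Over three elements every non-zero square is one. -/
lemma sq_eq_one_of_three (h3 : (3 : F) = 0) {a : F} (ha : a ≠ 0) : a * a = 1 := by
  obtain ⟨k, rfl⟩ := h.surj a
  have e1 : (k : F) = ((k % 3 : ℕ) : F) := by
    conv_lhs => rw [← Nat.mod_add_div k 3]
    rw [Nat.cast_add, Nat.cast_mul, Nat.cast_ofNat, h3, zero_mul, add_zero]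
  rw [e1] at ha ⊢
  have hlt : k % 3 < 3 := Nat.mod_lt _ (by norm_num)
  interval_cases k % 3
  · simp at ha
  · norm_num
  · push_cast
    linear_combination h3

/-- Three non-zero coordinates give two reflection vectors with singular difference. -/
theorem exists_close {v : ι → F} (hv : Refl Q c e M v) (hw : 3 ≤ (supp Q c e v).card) :
    ∃ K, K.card ≤ (supp Q c e v).card + 1 ∧ Close Q c e M K := by
  classical
  have hf := h.frame
  have h2 := hf.two
  have hc := hf.ne_zero
  have hprof : ∀ k : Fin t, k ∈ supp Q c e v ↔ co Q c e k v ≠ 0 := fun k => mem_supp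
  set S := supp Q c e v
  obtain ⟨m₀, hm₀⟩ : ∃ m₀ : Fin t, S.card < t → co Q c e m₀ v = 0 := by
    by_cases hlt : S.card < t
    · obtain ⟨m, -, hm⟩ := Finset.exists_mem_notMem_of_card_lt_card (s := S) (t := Finset.univ)
        (by rwa [Finset.card_univ, Fintype.card_fin])
      exact ⟨m, fun _ => by_contra fun h' => hm ((hprof m).2 h')⟩
    · exact ⟨⟨0, by have := h.large; omega⟩, fun h' => absurd h' hlt⟩
  set K := insert m₀ S
  refine ⟨K, Finset.card_insert_le _ _, ?_⟩
  by_contra hno
  -- no singular pairs inside `K`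
  have hpair : ∀ x y, Refl Q c e M x → Refl Q c e M y →
      (∀ k, k ∉ K → co Q c e k x = 0) → (∀ k, k ∉ K → co Q c e k y = 0) →
      (polar Q x y = 2 * c → y = x) ∧ (polar Q x y = -(2 * c) → y = -x) := by
    intro x y hx hy hxK hyK
    constructor
    · intro hp
      by_contra hne
      exact hno ⟨x, y, hx, hy, hp, hne, fun k hk => ⟨hxK k hk, hyK k hk⟩⟩
    · intro hp
      by_contra hne
      exact hno ⟨x, -y, hx, hy.neg, by rw [polar_neg_right, hp, neg_neg],
        fun e' => hne (by rw [← e', neg_neg]),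
        fun k hk => ⟨hxK k hk, by rw [map_neg, hyK k hk, neg_zero]⟩⟩
  have hflip : ∀ x, Refl Q c e M x → (∀ k, k ∉ K → co Q c e k x = 0) → ∀ T : Finset (Fin t),
      ∃ y, Refl Q c e M y ∧ (∀ k, k ∉ K → co Q c e k y = 0) ∧
        (∀ k, co Q c e k y = if k ∈ T then -co Q c e k x else co Q c e k x) ∧
        polar Q x y = 2 * c * (1 - 2 * ∑ k ∈ T, co Q c e k x * co Q c e k x) := by
    intro x hx hxK T
    obtain ⟨y, hy, hyco⟩ := hx.flip h T
    refine ⟨y, hy, fun k hk => by rw [hyco, hxK k hk, neg_zero, ite_self], hyco, ?_⟩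
    rw [hf.polar_eq]
    congr 1
    rw [← hx.sum_sq h, ← Finset.sum_sdiff (Finset.subset_univ T)
      (f := fun k => co Q c e k x * co Q c e k y),
      ← Finset.sum_sdiff (Finset.subset_univ T) (f := fun k => co Q c e k x * co Q c e k x),
      Finset.sum_congr rfl (g := fun k => co Q c e k x * co Q c e k x) (fun k hk => by
        rw [hyco, if_neg (Finset.mem_sdiff.1 hk).2]),
      Finset.sum_congr rfl (s₁ := T) (g := fun k => -(co Q c e k x * co Q c e k x)) (fun k hk => by
        rw [hyco, if_pos hk, mul_neg]),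
      Finset.sum_neg_distrib]
    ring
  have hrefl : ∀ x y, Refl Q c e M x → Refl Q c e M y →
      (∀ k, k ∉ K → co Q c e k x = 0) → (∀ k, k ∉ K → co Q c e k y = 0) → ∀ s : F,
      polar Q x y = 2 * c * s → ∃ z, Refl Q c e M z ∧ (∀ k, k ∉ K → co Q c e k z = 0) ∧
        ∀ k, co Q c e k z = co Q c e k y - 2 * s * co Q c e k x := by
    intro x y hx hy hxK hyK s hs
    have hco : ∀ k, co Q c e k (ap (rf Q x) y) = co Q c e k y - 2 * s * co Q c e k x := by
      intro k
      rw [ap_rf, map_sub, map_smul, hx.1, polar_comm Q y x, hs, smul_eq_mul]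
      field_simp
    exact ⟨_, hy.reflect h hx, fun k hk => by rw [hco, hxK k hk, hyK k hk]; ring, hco⟩
  -- the possible squares
  have key : ∀ x, Refl Q c e M x → (∀ k, k ∉ K → co Q c e k x = 0) → ∀ a b d : Fin t,
      a ≠ b → a ≠ d → b ≠ d → co Q c e a x ≠ 0 → co Q c e b x ≠ 0 → co Q c e d x ≠ 0 →
      (co Q c e a x * co Q c e a x ≠ 1) ∧
      (4 * (co Q c e a x * co Q c e a x) = 1 ∨ 2 * (co Q c e a x * co Q c e a x) = 1 ∨
        16 * (co Q c e a x * co Q c e a x) * (co Q c e a x * co Q c e a x) -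
          12 * (co Q c e a x * co Q c e a x) + 1 = 0) := by
    intro x hx hxK a b d hab had hbd ha hb hd
    have hne1 : co Q c e a x * co Q c e a x ≠ 1 := by
      intro h1
      obtain ⟨y, hy, hyK, hyco, hpol⟩ := hflip x hx hxK {a}
      rw [Finset.sum_singleton, h1] at hpol
      have := congrArg (co Q c e b) ((hpair x y hx hy hxK hyK).2 (by rw [hpol]; ring))
      rw [hyco, map_neg, if_neg (by simpa using hab.symm)] at this
      exact mul_ne_zero h2 hb (by linear_combination this)
    refine ⟨hne1, ?_⟩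
    by_cases hz : co Q c e a x * co Q c e a x + co Q c e b x * co Q c e b x = 1
    · exfalso
      obtain ⟨y, hy, hyK, hyco, hpol⟩ := hflip x hx hxK {a, b}
      rw [Finset.sum_pair hab, hz] at hpol
      have := congrArg (co Q c e d) ((hpair x y hx hy hxK hyK).2 (by rw [hpol]; ring))
      rw [hyco, map_neg, if_neg (by simp [had.symm, hbd.symm])] at this
      exact mul_ne_zero h2 hd (by linear_combination this)
    exact (allowed_of_not h hn hΩ hx hab ha hb hz).resolve_left hne1
  -- only one half
  have hhalf : ∀ x, Refl Q c e M x → (∀ k, k ∉ K → co Q c e k x = 0) → ∀ a b d : Fin t,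
      a ≠ b → a ≠ d → b ≠ d → co Q c e d x ≠ 0 → 2 * (co Q c e a x * co Q c e a x) = 1 →
      2 * (co Q c e b x * co Q c e b x) = 1 → False := by
    intro x hx hxK a b d hab had hbd hd ha hb
    obtain ⟨y, hy, hyK, hyco, hpol⟩ := hflip x hx hxK {a, b}
    rw [Finset.sum_pair hab] at hpol
    have := congrArg (co Q c e d) ((hpair x y hx hy hxK hyK).2
      (by rw [hpol]; linear_combination (-(2 * c)) * ha - (2 * c) * hb))
    rw [hyco, map_neg, if_neg (by simp [had.symm, hbd.symm])] at this
    exact mul_ne_zero h2 hd (by linear_combination this)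
  have hvK : ∀ k, k ∉ K → co Q c e k v = 0 := fun k hk =>
    by_contra fun h' => hk (Finset.mem_insert_of_mem ((hprof k).2 h'))
  set C : Fin t → F := fun k => co Q c e k v * co Q c e k v with hC
  have hthree : ∀ a ∈ S, ∀ b ∈ S, a ≠ b → ∃ d ∈ S, a ≠ d ∧ b ≠ d := by
    intro a ha b hb hab
    obtain ⟨d, hd, hd'⟩ := Finset.exists_mem_notMem_of_card_lt_card (s := {a, b}) (t := S)
      (by rw [Finset.card_pair hab]; omega)
    simp only [Finset.mem_insert, Finset.mem_singleton, not_or] at hd'
    exact ⟨d, hd, Ne.symm hd'.1, Ne.symm hd'.2⟩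
  have hC1 : ∀ a ∈ S, C a ≠ 1 ∧
      (4 * C a = 1 ∨ 2 * C a = 1 ∨ 16 * C a * C a - 12 * C a + 1 = 0) := by
    intro a ha
    obtain ⟨b, hb, hba⟩ := Finset.exists_mem_ne (by omega : 1 < S.card) a
    obtain ⟨d, hd, had, hbd⟩ := hthree a ha b hb (Ne.symm hba)
    exact key v hv hvK a b d (Ne.symm hba) had hbd ((hprof a).1 ha) ((hprof b).1 hb) ((hprof d).1 hd)
  have h3 : (3 : F) ≠ 0 := fun h3 => by
    obtain ⟨a, ha⟩ := Finset.card_pos.1 (by omega : 0 < S.card)
    exact (hC1 a ha).1 (sq_eq_one_of_three h h3 ((hprof a).1 ha))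
  -- consequences of changing one sign at a root
  have hroot : ∀ a ∈ S, 16 * C a * C a - 12 * C a + 1 = 0 → ∀ l ∈ S, l ≠ a →
      4 * C l = 1 ∨ (16 * C l * C l - 12 * C l + 1 = 0 ∧ C l ≠ C a) := by
    intro a ha hr l hl hla
    obtain ⟨d, hd, had, hld⟩ := hthree a ha l hl (Ne.symm hla)
    obtain ⟨y, hy, hyK, hyco, hpol⟩ := hflip v hv hvK {a}
    rw [Finset.sum_singleton] at hpol
    obtain ⟨z, hz, hzK, hzco⟩ := hrefl v y hv hy hvK hyK _ hpol
    have hr1 : 4 * C a - 1 ≠ 0 := fun h' =>
      one_ne_zero (α := F) (by linear_combination -hr + (4 * C a - 2) * h' + 0 * h')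
    have hzl : ∀ k, k ≠ a → co Q c e k z = (4 * C a - 1) * co Q c e k v := fun k hk => by
      rw [hzco, hyco, if_neg (by simpa using hk)]; simp only [hC]; ring
    have hza : co Q c e a z ≠ 0 := by
      rw [hzco, hyco, if_pos (Finset.mem_singleton_self a)]
      intro h'
      have h'' : (4 * C a - 3) * co Q c e a v = 0 := by simp only [hC]; linear_combination h'
      have h34 := (mul_eq_zero.1 h'').resolve_right ((hprof a).1 ha)
      exact one_ne_zero (α := F) (by linear_combination hr - (4 * C a) * h34)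
    have hsq : co Q c e l z * co Q c e l z = 4 * C a * C l := by
      rw [hzl l hla]; simp only [hC] at hr ⊢; linear_combination co Q c e l v * co Q c e l v * hr
    obtain ⟨-, hk⟩ := key z hz hzK l a d hla hld had
      (by rw [hzl l hla]; exact mul_ne_zero hr1 ((hprof l).1 hl)) hza
      (by rw [hzl d (Ne.symm had)]; exact mul_ne_zero hr1 ((hprof d).1 hd))
    rw [hsq] at hk
    have h8contra : 8 * C a = 1 → False := fun h8 =>
      one_ne_zero (α := F) (by linear_combination (-4 : F) * hr + (8 * C a - 5) * h8)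
    rcases (hC1 l hl).2 with q | q | q
    · exact Or.inl q
    · exfalso
      rcases hk with k1 | k1 | k1
      · exact h8contra (by linear_combination k1 - 8 * C a * q)
      · exact hr1 (by linear_combination k1 - 4 * C a * q)
      · have h24 : 3 * (8 * C a - 1) = 0 := by
          linear_combination k1 - 4 * hr - (64 * C a * C a * (2 * C l + 1) - 24 * C a) * q
        exact h8contra (sub_eq_zero.1 ((mul_eq_zero.1 h24).resolve_left h3))
    · refine Or.inr ⟨q, fun he => ?_⟩
      rw [he] at hk
      exact root_self h2 h3 (hC1 a ha).1 hr hk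
  -- a root and two quarters
  have hquart : ∀ a ∈ S, ∀ j ∈ S, ∀ l ∈ S, 16 * C a * C a - 12 * C a + 1 = 0 → 4 * C j = 1 →
      4 * C l = 1 → j ≠ l → False := by
    intro a ha j hj l hl hr hqj hql hjl
    have haj : a ≠ j := fun e' => by
      subst e'; exact one_ne_zero (α := F) (by linear_combination -hr + (4 * C a - 2) * hqj)
    have hal : a ≠ l := fun e' => by
      subst e'; exact one_ne_zero (α := F) (by linear_combination -hr + (4 * C a - 2) * hql)
    obtain ⟨y, hy, hyK, hyco, hpol⟩ := hflip v hv hvK {a, j}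
    rw [Finset.sum_pair haj] at hpol
    obtain ⟨z, hz, hzK, hzco⟩ := hrefl v y hv hy hvK hyK _ hpol
    have hc0 : C a ≠ 0 := fun h' => mul_ne_zero ((hprof a).1 ha) ((hprof a).1 ha) h'
    have hc2 : 2 - 4 * C a ≠ 0 := fun h' =>
      one_ne_zero (α := F) (by linear_combination -hr - (4 * C a - 1) * h')
    have h4 : (4 : F) ≠ 0 := by
      rw [show (4 : F) = 2 * 2 by norm_num]; exact mul_ne_zero h2 h2
    have hzl : co Q c e l z = 4 * C a * co Q c e l v := by
      rw [hzco, hyco, if_neg (by simp [hal.symm, hjl.symm])]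
      simp only [hC] at hqj ⊢
      linear_combination co Q c e l v * hqj
    have hzf : ∀ k, k = a ∨ k = j → co Q c e k v ≠ 0 → co Q c e k z ≠ 0 := by
      intro k hk hk0
      rw [hzco, hyco, if_pos (by simpa using hk)]
      intro h'
      refine mul_ne_zero hc2 hk0 ?_
      simp only [hC] at hqj ⊢
      linear_combination -h' + co Q c e k v * hqj
    obtain ⟨-, hk⟩ := key z hz hzK l a j hal.symm hjl.symm haj
      (by rw [hzl]; exact mul_ne_zero (mul_ne_zero h4 hc0) ((hprof l).1 hl))
      (hzf a (Or.inl rfl) ((hprof a).1 ha)) (hzf j (Or.inr rfl) ((hprof j).1 hj))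
    have hsq : co Q c e l z * co Q c e l z = 4 * C a * C a := by
      rw [hzl]; simp only [hC] at hql ⊢
      linear_combination 4 * (co Q c e a v * co Q c e a v) * (co Q c e a v * co Q c e a v) * hql
    rw [hsq] at hk
    exact root_self h2 h3 (hC1 a ha).1 hr hk
  have hsumS : ∑ k ∈ S, C k = 1 := by
    rw [← hv.sum_sq h]
    exact Finset.sum_subset (Finset.subset_univ S) fun k _ hk => by
      have h0 : co Q c e k v = 0 := by_contra fun h' => hk ((hprof k).2 h')
      simp only [hC]
      rw [h0, mul_zero]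
  -- moving one coordinate out of the support
  have hshift : S.card ≤ 4 → ∀ q ∈ S, ∃ y, Refl Q c e M y ∧ (∀ k, k ∉ K → co Q c e k y = 0) ∧
      co Q c e m₀ y = co Q c e q v ∧ co Q c e q y = 0 ∧
        ∀ k, k ≠ q → k ≠ m₀ → co Q c e k y = co Q c e k v := by
    intro hS q hq
    have hm : co Q c e m₀ v = 0 := hm₀ (by have := h.large; omega)
    have hqm : q ≠ m₀ := fun e' => (hprof q).1 hq (e' ▸ hm)
    obtain ⟨o, ho⟩ := exists_outside h K (by
      have := Finset.card_insert_le m₀ S; show (insert m₀ S).card < 7; omega)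
    obtain ⟨o', ho'⟩ := exists_outside h (insert o K) (by
      have := Finset.card_insert_le o K
      have := Finset.card_insert_le m₀ S
      show (insert o (insert m₀ S)).card < 7
      have : (insert o (insert m₀ S)).card ≤ (insert m₀ S).card + 1 := Finset.card_insert_le _ _
      omega)
    simp only [Finset.mem_insert, not_or] at ho'
    have hoo : o ≠ o' := Ne.symm ho'.1
    obtain ⟨y, hy, hyco⟩ := hv.swap_pair h hqm hoo
    have hqK : q ∈ K := Finset.mem_insert_of_mem hq
    have hmK : m₀ ∈ K := Finset.mem_insert_self m₀ S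
    have hin : ∀ k ∈ K, k ≠ o ∧ k ≠ o' := fun k hk =>
      ⟨fun e' => ho (e' ▸ hk), fun e' => ho'.2 (e' ▸ hk)⟩
    refine ⟨y, hy, fun k hk => ?_, ?_, ?_, fun k hkq hkm => ?_⟩
    · rw [hyco, Equiv.swap_apply_of_ne_of_ne (fun e' : k = q => hk (e' ▸ hqK))
        (fun e' : k = m₀ => hk (e' ▸ hmK))]
      by_cases hko : k = o
      · rw [hko, Equiv.swap_apply_left]; exact hvK o' ho'.2
      by_cases hko' : k = o'
      · rw [hko', Equiv.swap_apply_right]; exact hvK o ho
      rw [Equiv.swap_apply_of_ne_of_ne hko hko']; exact hvK k hk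
    · rw [hyco, Equiv.swap_apply_right, Equiv.swap_apply_of_ne_of_ne (hin q hqK).1 (hin q hqK).2]
    · rw [hyco, Equiv.swap_apply_left, Equiv.swap_apply_of_ne_of_ne (hin _ hmK).1 (hin _ hmK).2, hm]
    · rw [hyco, Equiv.swap_apply_of_ne_of_ne hkq hkm]
      by_cases hko : k = o
      · rw [hko, Equiv.swap_apply_left, hvK o ho, hvK o' ho'.2]
      by_cases hko' : k = o'
      · rw [hko', Equiv.swap_apply_right, hvK o ho, hvK o' ho'.2]
      rw [Equiv.swap_apply_of_ne_of_ne hko hko']
  have hmS : S.card ≤ 4 → m₀ ∉ S := fun hS hm =>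
    (hprof m₀).1 hm (hm₀ (by have := h.large; omega))
  -- three coordinates, one moved: a kept square is divided by four
  have htriple : ∀ a b q, a ∈ S → b ∈ S → q ∈ S → a ≠ b → a ≠ q → b ≠ q → S.card = 3 →
      4 * (C a + C b) = 3 → ∃ X, 4 * X = C a ∧
        (4 * X = 1 ∨ 2 * X = 1 ∨ 16 * X * X - 12 * X + 1 = 0) := by
    intro a b q ha hb hq hab haq hbq hcard hs
    have hS3 : S = {a, b, q} := (Finset.eq_of_subset_of_card_le (by
      intro k hk
      simp only [Finset.mem_insert, Finset.mem_singleton] at hk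
      rcases hk with rfl | rfl | rfl <;> assumption)
      (by rw [Finset.card_eq_three.2 ⟨a, b, q, hab, haq, hbq, rfl⟩, hcard])).symm
    obtain ⟨y, hy, hyK, hym, hyq, hyk⟩ := hshift (by omega) q hq
    have hm := hmS (by omega)
    have ham : a ≠ m₀ := fun e' => hm (e' ▸ ha)
    have hbm : b ≠ m₀ := fun e' => hm (e' ▸ hb)
    have hpol : polar Q v y = 2 * c * (C a + C b) := by
      rw [hf.polar_eq]
      congr 1
      rw [← Finset.sum_subset (Finset.subset_univ S) (fun k _ hk => by
        rw [show co Q c e k v = 0 from by_contra fun h' => hk ((hprof k).2 h'), zero_mul]), hS3]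
      rw [Finset.sum_insert (by simp [hab, haq]), Finset.sum_pair hbq, hyq, hyk a haq ham,
        hyk b hbq hbm]
      simp only [hC]; ring
    obtain ⟨z, hz, hzK, hzco⟩ := hrefl v y hv hy hvK hyK _ hpol
    have hk0 : 1 - 2 * (C a + C b) ≠ 0 := fun h' =>
      one_ne_zero (α := F) (by linear_combination -2 * h' - hs)
    have hzk : ∀ k, k ≠ q → k ≠ m₀ → co Q c e k z = (1 - 2 * (C a + C b)) * co Q c e k v :=
      fun k hkq hkm => by rw [hzco, hyk k hkq hkm]; ring
    obtain ⟨-, hk⟩ := key z hz hzK a b m₀ hab ham hbm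
      (by rw [hzk a haq ham]; exact mul_ne_zero hk0 ((hprof a).1 ha))
      (by rw [hzk b hbq hbm]; exact mul_ne_zero hk0 ((hprof b).1 hb))
      (by rw [hzco, hym, hm₀ (by have := h.large; omega), mul_zero, sub_zero]
          exact (hprof q).1 hq)
    refine ⟨co Q c e a z * co Q c e a z, ?_, hk⟩
    rw [hzk a haq ham]
    simp only [hC] at hs ⊢
    linear_combination (4 * (co Q c e a v * co Q c e a v + co Q c e b v * co Q c e b v) - 1) *
      (co Q c e a v * co Q c e a v) * hs
  -- no roots
  have hnoroot : ∀ a ∈ S, 16 * C a * C a - 12 * C a + 1 = 0 → False := by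
    intro a ha hr
    have hsum : ∀ r ∈ S, 16 * C r * C r - 12 * C r + 1 = 0 → C r ≠ C a → 4 * (C a + C r) = 3 := by
      intro r _ hrr hne
      have h' : (2 * 2) * ((C r - C a) * (4 * (C a + C r) - 3)) = 0 := by
        linear_combination hrr - hr
      exact sub_eq_zero.1 ((mul_eq_zero.1 ((mul_eq_zero.1 h').resolve_left
        (mul_ne_zero h2 h2))).resolve_left (sub_ne_zero.2 hne))
    -- two others of one kind are impossible
    have hkind : ∀ l ∈ S, ∀ d ∈ S, l ≠ a → d ≠ a → l ≠ d →
        (16 * C l * C l - 12 * C l + 1 = 0 ∧ C l ≠ C a) ∧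
          (16 * C d * C d - 12 * C d + 1 = 0 ∧ C d ≠ C a) → False := by
      intro l hl d hd hla hda hld hboth
      obtain ⟨⟨h1, h1'⟩, ⟨h2', h2''⟩⟩ := hboth
      have heq : C l = C d := by
        have : (2 * 2) * (C l - C d) = 0 := by
          linear_combination hsum l hl h1 h1' - hsum d hd h2' h2''
        exact sub_eq_zero.1 ((mul_eq_zero.1 this).resolve_left (mul_ne_zero h2 h2))
      rcases hroot l hl h1 d hd (Ne.symm hld) with q | q
      · exact one_ne_zero (α := F) (by linear_combination -h2' + (4 * C d - 2) * q)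
      · exact q.2 heq.symm
    obtain ⟨l, hl, hla⟩ := Finset.exists_mem_ne (by omega : 1 < S.card) a
    obtain ⟨d, hd, had, hld⟩ := hthree a ha l hl (Ne.symm hla)
    have hcard : S.card = 3 := by
      by_contra hne
      obtain ⟨w, hw', hwn⟩ := Finset.exists_mem_notMem_of_card_lt_card (s := {a, l, d}) (t := S)
        (by rw [Finset.card_eq_three.2 ⟨a, l, d, Ne.symm hla, had, hld, rfl⟩]; omega)
      simp only [Finset.mem_insert, Finset.mem_singleton, not_or] at hwn
      rcases hroot a ha hr l hl hla with x1 | x1 <;>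
        rcases hroot a ha hr d hd (Ne.symm had) with x2 | x2 <;>
        rcases hroot a ha hr w hw' hwn.1 with x3 | x3
      all_goals first
        | exact hquart a ha l hl d hd hr x1 x2 hld
        | exact hquart a ha l hl w hw' hr x1 x3 (Ne.symm hwn.2.1)
        | exact hquart a ha d hd w hw' hr x2 x3 (Ne.symm hwn.2.2)
        | exact hkind l hl d hd hla (Ne.symm had) hld ⟨x1, x2⟩
        | exact hkind l hl w hw' hla hwn.1 (Ne.symm hwn.2.1) ⟨x1, x3⟩
        | exact hkind d hd w hw' (Ne.symm had) hwn.1 (Ne.symm hwn.2.2) ⟨x2, x3⟩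
    -- the other root and the quarter
    obtain ⟨r, hr', q, hq, hra, hqa, hrq, hrr, hrne⟩ : ∃ r ∈ S, ∃ q ∈ S, r ≠ a ∧ q ≠ a ∧ r ≠ q ∧
        16 * C r * C r - 12 * C r + 1 = 0 ∧ C r ≠ C a := by
      rcases hroot a ha hr l hl hla with x1 | x1 <;>
        rcases hroot a ha hr d hd (Ne.symm had) with x2 | x2
      · exact (hquart a ha l hl d hd hr x1 x2 hld).elim
      · exact ⟨d, hd, l, hl, Ne.symm had, hla, Ne.symm hld, x2⟩
      · exact ⟨l, hl, d, hd, hla, Ne.symm had, hld, x1⟩
      · exact (hkind l hl d hd hla (Ne.symm had) hld ⟨x1, x2⟩).elim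
    have hs := hsum r hr' hrr hrne
    have hval : ∀ x ∈ S, ∀ y ∈ S, x ≠ y → x ≠ q → y ≠ q →
        16 * C x * C x - 12 * C x + 1 = 0 → 4 * (C x + C y) = 3 → C x = 2 ∨ 12 * C x = 5 := by
      intro x hx y hy hxy hxq hyq hxr hxs
      obtain ⟨X, hX, k⟩ := htriple x y q hx hy hq hxy hxq hyq hcard hxs
      rcases k with k | k | k
      · exact absurd (show C x = 1 by rw [← hX, k]) (hC1 x hx).1
      · exact Or.inl (by linear_combination -hX + 2 * k)
      · refine Or.inr (sub_eq_zero.1
          ((mul_eq_zero.1 (show (3 : F) * (12 * C x - 5) = 0 from ?_)).resolve_left h3))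
        linear_combination hxr - 16 * k + (16 * (C x + 4 * X) - 48) * hX
    have v1 := hval a ha r hr' (Ne.symm hra) (Ne.symm hqa) hrq hr hs
    have v2 := hval r hr' a ha hra hrq (Ne.symm hqa) hrr (by rw [add_comm]; exact hs)
    have h5 : (5 : F) = 0 := by
      have h4 : (2 : F) * 2 ≠ 0 := mul_ne_zero h2 h2
      rcases v1 with v1 | v1 <;> rcases v2 with v2 | v2
      · exact absurd (v2.trans v1.symm) hrne
      · refine (mul_eq_zero.1 (show (2 * 2) * (5 : F) = 0 from ?_)).resolve_left h4
        linear_combination 3 * hs - 12 * v1 - v2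
      · refine (mul_eq_zero.1 (show (2 * 2) * (5 : F) = 0 from ?_)).resolve_left h4
        linear_combination 3 * hs - 12 * v2 - v1
      · refine absurd ?_ hrne
        exact mul_left_cancel₀ (mul_ne_zero h3 h4) (by linear_combination v2 - v1)
    have : (C a - 1) * (C a - 1) = 0 := by
      linear_combination hr - (3 * C a * C a - 2 * C a) * h5
    exact (hC1 a ha).1 (sub_eq_zero.1 (mul_self_eq_zero.1 this))
  have hC2 : ∀ a ∈ S, 4 * C a = 1 ∨ 2 * C a = 1 := fun a ha => by
    rcases (hC1 a ha).2 with q | q | q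
    · exact Or.inl q
    · exact Or.inr q
    · exact (hnoroot a ha q).elim
  -- no half
  have hC4 : ∀ a ∈ S, 4 * C a = 1 := by
    intro a ha
    refine (hC2 a ha).resolve_right fun hh => ?_
    obtain ⟨l, hl, hla⟩ := Finset.exists_mem_ne (by omega : 1 < S.card) a
    obtain ⟨d, hd, had, hld⟩ := hthree a ha l hl (Ne.symm hla)
    have hq : ∀ x ∈ S, x ≠ a → 4 * C x = 1 := fun x hx hxa => by
      obtain ⟨w, hw', haw, hxw⟩ := hthree a ha x hx (Ne.symm hxa)
      exact (hC2 x hx).resolve_right fun hx2 =>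
        hhalf v hv hvK a x w (Ne.symm hxa) haw hxw ((hprof w).1 hw') hh hx2
    by_cases hcard : S.card = 3
    · obtain ⟨X, hX, k⟩ := htriple a l d ha hl hd (Ne.symm hla) had hld hcard (by
        have := hq l hl hla
        linear_combination 2 * hh + this)
      rcases k with k | k | k
      · exact one_ne_zero (α := F) (by linear_combination -2 * k + 2 * hX + hh)
      · exact h3 (by linear_combination -4 * k + 2 * hX + hh)
      · exact one_ne_zero (α := F) (by linear_combination (-4 : F) * k + (8 * X - 5) * (2 * hX + hh))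
    obtain ⟨w, hw', hwn⟩ := Finset.exists_mem_notMem_of_card_lt_card (s := {a, l, d}) (t := S)
      (by rw [Finset.card_eq_three.2 ⟨a, l, d, Ne.symm hla, had, hld, rfl⟩]; omega)
    simp only [Finset.mem_insert, Finset.mem_singleton, not_or] at hwn
    obtain ⟨y, hy, hyK, hyco, hpol⟩ := hflip v hv hvK {a, l}
    rw [Finset.sum_pair (Ne.symm hla)] at hpol
    obtain ⟨z, hz, hzK, hzco⟩ := hrefl v y hv hy hvK hyK _ hpol
    have hzk : ∀ k, k ≠ a → k ≠ l → co Q c e k z = 2 * co Q c e k v := fun k hka hkl => by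
      rw [hzco, hyco, if_neg (by simp [hka, hkl])]
      have hql := hq l hl hla
      simp only [hC] at hh hql
      linear_combination (2 * co Q c e k v) * hh + co Q c e k v * hql
    have hd1 : (co Q c e d z) * (co Q c e d z) = 1 := by
      rw [hzk d (Ne.symm had) (Ne.symm hld)]
      have := hq d hd (Ne.symm had)
      simp only [hC] at this
      linear_combination this
    have hdK : d ∈ K := Finset.mem_insert_of_mem hd
    have hes : ∀ k, k ∉ K → co Q c e k (e d) = 0 := fun k hk => by
      rw [hf.co_e, if_neg (fun e' : k = d => hk (e' ▸ hdK))]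
    have hpd : polar Q z (e d) = 2 * c * co Q c e d z := hf.polar_e d z
    have hwz : co Q c e w z ≠ 0 := by
      rw [hzk w hwn.1 hwn.2.1]; exact mul_ne_zero h2 ((hprof w).1 hw')
    refine hwz ?_
    rcases mul_self_eq_one_iff.1 hd1 with e1 | e1
    · rw [← (hpair z (e d) hz (Refl.frame h d) hzK hes).1 (by rw [hpd, e1, mul_one]),
        hf.co_e, if_neg hwn.2.2]
    · have := congrArg (co Q c e w)
        ((hpair z (e d) hz (Refl.frame h d) hzK hes).2 (by rw [hpd, e1]; ring))
      rw [map_neg, hf.co_e, if_neg hwn.2.2] at this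
      linear_combination this
  have hw4 : (S.card : F) = 4 := by
    have h' : ∑ k ∈ S, 4 * C k = 4 := by rw [← Finset.mul_sum, hsumS, mul_one]
    rw [Finset.sum_congr rfl hC4, Finset.sum_const, nsmul_one] at h'
    exact h'
  -- two equal kept squares of one sixteenth
  have hsixteen : ∀ z, Refl Q c e M z → (∀ k, k ∉ K → co Q c e k z = 0) → ∀ a b d : Fin t,
      a ≠ b → a ≠ d → b ≠ d → 16 * (co Q c e a z * co Q c e a z) = 1 →
      16 * (co Q c e b z * co Q c e b z) = 1 → co Q c e d z ≠ 0 → False := by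
    intro z hz hzK a b d hab had hbd ha hb hd
    have hne : ∀ k, 16 * (co Q c e k z * co Q c e k z) = 1 → co Q c e k z ≠ 0 := fun k hk h0 => by
      rw [h0] at hk; simp at hk
    obtain ⟨h1, k⟩ := key z hz hzK a b d hab had hbd (hne a ha) (hne b hb) hd
    rcases k with k | k | k
    · exact h3 (by linear_combination ha - 4 * k)
    · refine hhalf z hz hzK a b d hab had hbd hd k ?_
      have h7 : (7 : F) = 0 := by linear_combination ha - 8 * k
      linear_combination -(2 * (co Q c e b z * co Q c e b z)) * h7 + hb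
    · have h5 : (5 : F) = 0 := by
        linear_combination 16 * k - (16 * (co Q c e a z * co Q c e a z) - 11) * ha
      exact h1 (by linear_combination ha - 3 * (co Q c e a z * co Q c e a z) * h5)
  by_cases hcard3 : S.card = 3
  · rw [hcard3] at hw4
    exact one_ne_zero (α := F) (by linear_combination -hw4)
  by_cases hcard4 : S.card = 4
  · obtain ⟨a, ha⟩ := Finset.card_pos.1 (by omega : 0 < S.card)
    obtain ⟨b, hb, hba⟩ := Finset.exists_mem_ne (by omega : 1 < S.card) a
    obtain ⟨k, hk, hak, hbk⟩ := hthree a ha b hb (Ne.symm hba)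
    have h3c : ({a, b, k} : Finset (Fin t)).card = 3 :=
      Finset.card_eq_three.2 ⟨a, b, k, Ne.symm hba, hak, hbk, rfl⟩
    obtain ⟨j, hj, hjn⟩ := Finset.exists_mem_notMem_of_card_lt_card (s := {a, b, k}) (t := S)
      (by omega)
    have hS4 : S = insert j {a, b, k} := (Finset.eq_of_subset_of_card_le (by
      intro x hx
      simp only [Finset.mem_insert, Finset.mem_singleton] at hx
      rcases hx with rfl | rfl | rfl | rfl <;> assumption)
      (by rw [Finset.card_insert_of_notMem hjn]; omega)).symm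
    simp only [Finset.mem_insert, Finset.mem_singleton, not_or] at hjn
    obtain ⟨y, hy, hyK, hym, hyj, hyk⟩ := hshift (by omega) j hj
    have hm := hmS (by omega)
    have hmne : ∀ x ∈ S, x ≠ m₀ := fun x hx e' => hm (e' ▸ hx)
    obtain ⟨y', hy', hy'K, hy'co, -⟩ := hflip y hy hyK {k}
    have hpol : polar Q v y' = 2 * c * (C a + C b - C k) := by
      rw [hf.polar_eq]
      congr 1
      rw [← Finset.sum_subset (Finset.subset_univ S) (fun k _ hk => by
        rw [show co Q c e k v = 0 from by_contra fun h' => hk ((hprof k).2 h'), zero_mul]), hS4]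
      rw [Finset.sum_insert (by simp [hjn]), Finset.sum_insert (by simp [Ne.symm hba, hak]),
        Finset.sum_pair hbk, hy'co, hy'co, hy'co, hy'co, if_pos (Finset.mem_singleton_self k),
        if_neg (by simp [hjn.2.2]), if_neg (by simp [hak]), if_neg (by simp [hbk]), hyj,
        hyk a (Ne.symm hjn.1) (hmne a ha), hyk b (Ne.symm hjn.2.1) (hmne b hb),
        hyk k (Ne.symm hjn.2.2) (hmne k hk)]
      simp only [hC]; ring
    obtain ⟨z, hz, hzK, hzco⟩ := hrefl v y' hv hy' hvK hy'K _ hpol
    have hkept : ∀ x ∈ S, x ≠ j → x ≠ k → 16 * (co Q c e x z * co Q c e x z) = 1 := by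
      intro x hx hxj hxk
      rw [hzco, hy'co, if_neg (by simpa using hxk), hyk x hxj (hmne x hx)]
      have e1 := hC4 a ha; have e2 := hC4 b hb; have e3 := hC4 k hk; have e4 := hC4 x hx
      have hh : 2 * (1 - 2 * (C a + C b - C k)) = 1 := by linear_combination -e1 - e2 + e3
      simp only [hC] at e4 hh ⊢
      linear_combination (4 * (co Q c e x v * co Q c e x v) *
        (2 * (1 - 2 * (co Q c e a v * co Q c e a v + co Q c e b v * co Q c e b v -
          co Q c e k v * co Q c e k v)) + 1)) * hh + e4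
    refine hsixteen z hz hzK a b m₀ (Ne.symm hba) (hmne a ha) (hmne b hb)
      (hkept a ha (Ne.symm hjn.1) hak) (hkept b hb (Ne.symm hjn.2.1) hbk) ?_
    rw [hzco, hy'co, if_neg (by simpa using (hmne k hk).symm), hym,
      hm₀ (by have := h.large; omega), mul_zero, sub_zero]
    exact (hprof j).1 hj
  rcases Nat.even_or_odd S.card with ⟨d, hd⟩ | ⟨d, hd⟩
  · obtain ⟨T, hTS, hTc⟩ := Finset.exists_subset_card_eq (s := S) (n := d - 2) (by omega)
    obtain ⟨k, hk⟩ := Finset.card_pos.1 (by omega : 0 < T.card)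
    obtain ⟨y, hy, hyK, hyco, hpol⟩ := hflip v hv hvK T
    have hT0 : (T.card : F) = 0 := by
      have h' : ((S.card : ℕ) : F) = ((2 * T.card + 4 : ℕ) : F) := by congr 1; omega
      rw [hw4] at h'
      push_cast at h'
      exact (mul_eq_zero.1 (show (2 : F) * (T.card : F) = 0 by linear_combination -h')).resolve_left
        h2
    have hsum0 : ∑ x ∈ T, co Q c e x v * co Q c e x v = 0 := by
      have h' : 4 * ∑ x ∈ T, C x = 0 := by
        rw [Finset.mul_sum, Finset.sum_congr rfl (fun x hx => hC4 x (hTS hx)), Finset.sum_const,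
          nsmul_one, hT0]
      exact (mul_eq_zero.1 h').resolve_left (by
        rw [show (4 : F) = 2 * 2 by norm_num]; exact mul_ne_zero h2 h2)
    have := congrArg (co Q c e k) ((hpair v y hv hy hvK hyK).1 (by rw [hpol, hsum0]; ring))
    rw [hyco, if_pos hk] at this
    exact mul_ne_zero h2 ((hprof k).1 (hTS hk)) (by linear_combination -this)
  · obtain ⟨T, hTS, hTc⟩ := Finset.exists_subset_card_eq (s := S) (n := d) (by omega)
    obtain ⟨y, hy, hyK, hyco, hpol⟩ := hflip v hv hvK T
    have hT3 : 2 * (T.card : F) = 3 := by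
      have h' : ((S.card : ℕ) : F) = ((2 * T.card + 1 : ℕ) : F) := by congr 1; omega
      rw [hw4] at h'
      push_cast at h'
      linear_combination -h'
    have hsumT : 4 * ∑ x ∈ T, C x = (T.card : F) := by
      rw [Finset.mul_sum, Finset.sum_congr rfl (fun x hx => hC4 x (hTS hx)), Finset.sum_const,
        nsmul_one]
    obtain ⟨z, hz, hzK, hzco⟩ := hrefl v y hv hy hvK hyK _ hpol
    have hh : 2 * (1 - 2 * (1 - 2 * ∑ x ∈ T, C x)) = 1 := by
      linear_combination 2 * hsumT + hT3
    have hkept : ∀ x ∈ S, x ∉ T → 16 * (co Q c e x z * co Q c e x z) = 1 := by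
      intro x hx hxT
      rw [hzco, hyco, if_neg hxT]
      have e4 := hC4 x hx
      simp only [hC] at e4 hh ⊢
      linear_combination (4 * (co Q c e x v * co Q c e x v) *
        (2 * (1 - 2 * (1 - 2 * ∑ x ∈ T, co Q c e x v * co Q c e x v)) + 1)) * hh + e4
    obtain ⟨a, b, x, ha, hb, hx, hab, hax, hbx⟩ := Finset.two_lt_card_iff.1
      (show 2 < (S \ T).card by rw [Finset.card_sdiff_of_subset hTS]; omega)
    rw [Finset.mem_sdiff] at ha hb hx
    exact hsixteen z hz hzK a b x hab hax hbx (hkept a ha.1 ha.2) (hkept b hb.1 hb.2)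
      (fun h0 => by have := hkept x hx.1 hx.2; rw [h0] at this; simp at this)

end CfsgLib.Geometric.Orth.Frame
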