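import Cfsg.Agent.Lib.Geometric.Orth.Frame.Order

/-!
Two reflection vectors with a singular difference, both of small support, make the group contain
`omegaGL`.
-/

namespace CfsgLib.Geometric.Orth.Frame

open Matrix QuadraticMap CfsgLib.ClassicalForms

variable {ι : Type} [Fintype ι] [DecidableEq ι] {F : Type*} [Field F]
variable {t : ℕ} {Q : QuadraticForm F (ι → F)} {c : F} {e : Fin t → ι → F}
variable {M : Subgroup (GL ι F)}

/-- A singular vector of small support whose Siegel elements in all outside frame directions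
preserve the reflection vectors. -/
def Short (Q : QuadraticForm F (ι → F)) (c : F) (e : Fin t → ι → F) (M : Subgroup (GL ι F))
    (u : ι → F) : Prop :=
  u ≠ 0 ∧ Q u = 0 ∧ ∃ s : Finset (Fin t), s.card ≤ 3 ∧ (∀ k, k ∈ s ↔ co Q c e k u ≠ 0) ∧
    ∀ m, co Q c e m u = 0 → Inn Q (keep Q c e M) u (e m)

/-- Two reflection vectors with a singular difference, supported in `K`. -/
def Close (Q : QuadraticForm F (ι → F)) (c : F) (e : Fin t → ι → F) (M : Subgroup (GL ι F))
    (K : Finset (Fin t)) : Prop :=
  ∃ v w, Refl Q c e M v ∧ Refl Q c e M w ∧ polar Q v w = 2 * c ∧ w ≠ v ∧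
    ∀ k, k ∉ K → co Q c e k v = 0 ∧ co Q c e k w = 0

variable (h : Over Q c e M)
include h

lemma exists_outside (s : Finset (Fin t)) (hs : s.card < 7) : ∃ m, m ∉ s := by
  obtain ⟨m, -, hm⟩ := Finset.exists_mem_notMem_of_card_lt_card (s := s) (t := Finset.univ)
    (by rw [Finset.card_univ, Fintype.card_fin]; have := h.large; omega)
  exact ⟨m, hm⟩

lemma swap_keep {a b a' b' : Fin t} (hab : a ≠ b) (ha'b' : a' ≠ b') :
    rf Q (e a - e b) * rf Q (e a' - e b') ∈ keep Q c e M := by
  obtain ⟨o, ho⟩ := exists_outside h ({a, b, a', b'} : Finset (Fin t))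
    (lt_of_le_of_lt Finset.card_le_four (by norm_num))
  simp only [Finset.mem_insert, Finset.mem_singleton, not_or] at ho
  have h1 : polar Q (e o) (e a' - e b') = 0 := by
    rw [polar_sub_right, h.frame.orth o a' ho.2.2.1, h.frame.orth o b' ho.2.2.2, sub_zero]
  have h2 : polar Q (e o) (e a - e b) = 0 := by
    rw [polar_sub_right, h.frame.orth o a ho.1, h.frame.orth o b ho.2.1, sub_zero]
  refine ⟨h.swap a b a' b' hab ha'b', fun x hx => ?_, fun x hx => ?_⟩
  · refine Refl.ap h (h.swap a b a' b' hab ha'b') (o := o) ?_ hx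
    rw [ap_mul, ap_rf_fix h1, ap_rf_fix h2]
    exact Refl.frame h o
  · rw [_root_.mul_inv_rev, rf_inv, rf_inv]
    refine Refl.ap h (h.swap a' b' a b ha'b' hab) (o := o) ?_ hx
    rw [ap_mul, ap_rf_fix h2, ap_rf_fix h1]
    exact Refl.frame h o

lemma co_swap {a b a' b' : Fin t} (hab : a ≠ b) (ha'b' : a' ≠ b') (i : Fin t) (x : ι → F) :
    co Q c e i (ap (rf Q (e a - e b) * rf Q (e a' - e b')) x) =
      co Q c e (Equiv.swap a' b' (Equiv.swap a b i)) x := by
  rw [ap_mul, h.frame.co_rf_swap hab, h.frame.co_rf_swap ha'b']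

lemma ap_swap_frame {a b a' b' : Fin t} (hab : a ≠ b) (ha'b' : a' ≠ b') (m : Fin t) :
    ap (rf Q (e a - e b) * rf Q (e a' - e b')) (e m) =
      e (Equiv.swap a b (Equiv.swap a' b' m)) := by
  refine h.frame.ext fun i => ?_
  rw [co_swap h hab ha'b', h.frame.co_e, h.frame.co_e]
  refine if_congr ?_ rfl rfl
  constructor
  · intro e'
    rw [← e']
    simp
  · intro e'
    rw [e']
    simp

/-- The Siegel elements of a pair of reflection vectors with singular difference. -/
lemma inn_of_pair {v w : ι → F} (hv : Refl Q c e M v) (hw : Refl Q c e M w)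
    (hvw : polar Q v w = 2 * c) :
    (∀ s : F, Refl Q c e M (v + s • (w - v))) ∧ Inn Q (keep Q c e M) (w - v) v := by
  set u := w - v with hu
  have hQu : Q u = 0 := by
    rw [hu, map_sub_eq, hv.1, hw.1, polar_comm, hvw]; ring
  have huv : polar Q u v = 0 := by
    rw [hu, polar_sub_left, polar_self_mul, hv.1, polar_comm, hvw, sub_self]
  have hc := h.frame.ne_zero
  have hshift : ∀ k : ℕ, Refl Q c e M (v + (k : F) • u) ∧
      Refl Q c e M (v + ((k + 1 : ℕ) : F) • u) := by
    intro k
    induction k with
    | zero => exact ⟨by simpa using hv, by simpa [hu] using hw⟩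
    | succ k ih =>
      refine ⟨ih.2, ?_⟩
      have h1 := ((ih.1.reflect h hv).neg.reflect h hw).neg
      convert h1 using 1
      rw [ap_rf v, polar_add_left, polar_smul_left, polar_self_mul, huv, hv.1, ap_rf w,
        polar_neg_left, polar_sub_left, polar_add_left, polar_smul_left, polar_smul_left,
        show polar Q u w = 0 by
          rw [show w = v + u by rw [hu]; abel, polar_add_right, huv, polar_self_mul, hQu, mul_zero,
            add_zero],
        hvw, hw.1, show w = v + u by rw [hu]; abel, smul_zero, add_zero]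
      simp only [smul_eq_mul]
      push_cast
      match_scalars <;> field_simp <;> ring
  have hall : ∀ s : F, Refl Q c e M (v + s • u) := fun s => by
    obtain ⟨k, rfl⟩ := h.surj s
    exact (hshift k).1
  refine ⟨hall, hQu, huv, fun a => ?_⟩
  have := rf_pair_keep h hv (hall (a * c))
  convert this using 1
  refine gl_ext fun x => ?_
  rw [ap_sg, ap_mul, ap_rf, ap_rf]
  simp only [polar_sub_left, polar_smul_left, polar_add_left, polar_add_right, polar_smul_right,
    polar_self_mul, QuadraticMap.map_add (⇑Q), QuadraticMap.map_smul, hQu, hv.1,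
    polar_comm Q v u, huv, smul_eq_mul, mul_zero, add_zero, zero_mul]
  match_scalars <;> field_simp <;> ring

/-- A reflection vector with a coordinate one gives a short vector. -/
lemma short_of_unit {x : ι → F} (hx : Refl Q c e M x) {l : Fin t} (hl : co Q c e l x = 1)
    (hne : x ≠ e l) {K : Finset (Fin t)} (hK : ∀ k, k ∉ K → co Q c e k x = 0) (hcard : K.card ≤ 4) :
    ∃ u, Short Q c e M u := by
  classical
  have hpol : polar Q (e l) x = 2 * c := by rw [polar_comm, h.frame.polar_e, hl, mul_one]
  obtain ⟨-, hin⟩ := inn_of_pair h (Refl.frame h l) hx hpol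
  set u := x - e l with hu
  have hu0 : u ≠ 0 := sub_ne_zero.2 hne
  have hlu : co Q c e l u = 0 := by rw [hu, map_sub, hl, h.frame.co_e, if_pos rfl, sub_self]
  set s := Finset.univ.filter fun k => co Q c e k u ≠ 0
  have hs : s.card ≤ 3 := by
    have hlK : l ∈ K := by
      by_contra hlK
      rw [hK l hlK] at hl
      exact zero_ne_one hl
    have : s ⊆ K.erase l := fun k hk => by
      simp only [s, Finset.mem_filter, Finset.mem_univ, true_and] at hk
      have hkl : k ≠ l := fun e' => hk (e' ▸ hlu)
      refine Finset.mem_erase.2 ⟨hkl, ?_⟩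
      by_contra hkK
      refine hk ?_
      rw [hu, map_sub, hK k hkK, h.frame.co_e, if_neg hkl, sub_zero]
    have := Finset.card_le_card this
    rw [Finset.card_erase_of_mem hlK] at this
    omega
  refine ⟨u, hu0, hin.1, s, hs, fun k => by simp [s], fun m hm => ?_⟩
  by_cases hml : m = l
  · exact hml ▸ hin
  obtain ⟨o, ho⟩ := exists_outside h (s ∪ {l, m}) (by
    have := Finset.card_union_le s {l, m}
    have := Finset.card_le_two (a := l) (b := m)
    omega)
  obtain ⟨o', ho'⟩ := exists_outside h (s ∪ {l, m} ∪ {o}) (by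
    have := Finset.card_union_le (s ∪ {l, m}) {o}
    have := Finset.card_union_le s {l, m}
    have := Finset.card_le_two (a := l) (b := m)
    have := Finset.card_singleton o
    omega)
  simp only [s, Finset.mem_union, Finset.mem_filter, Finset.mem_univ, true_and, Finset.mem_insert,
    Finset.mem_singleton, not_or, ne_eq, not_not] at ho ho'
  have hoo : o ≠ o' := Ne.symm ho'.2
  have hg := swap_keep h (a := l) (b := m) (a' := o) (b' := o') (Ne.symm hml) hoo
  have h1 := hin.conj (keep_isom h) hg
  have e1 : ap (rf Q (e l - e m) * rf Q (e o - e o')) u = u := by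
    rw [ap_mul, ap_rf_fix (x := u) (by
      rw [polar_sub_right, h.frame.polar_e, h.frame.polar_e, ho.1, ho'.1.1, sub_self]),
      ap_rf_fix (x := u) (by rw [polar_sub_right, h.frame.polar_e, h.frame.polar_e, hlu, hm,
        sub_self])]
  rw [e1, ap_swap_frame h (Ne.symm hml) hoo,
    Equiv.swap_apply_of_ne_of_ne (fun e' => ho.2.1 e'.symm) (fun e' => ho'.1.2.1 e'.symm),
    Equiv.swap_apply_left] at h1
  exact h1

lemma short_of_close {K : Finset (Fin t)} (hK : Close Q c e M K) (hcard : K.card ≤ 4) :
    ∃ u, Short Q c e M u := by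
  obtain ⟨v, w, hv, hw, hvw, hne, hsupp⟩ := hK
  obtain ⟨hall, hin⟩ := inn_of_pair h hv hw hvw
  set u := w - v with hu
  obtain ⟨l, hl⟩ : ∃ l, co Q c e l u ≠ 0 := by
    by_contra! hall'
    exact hne (sub_eq_zero.1 (h.frame.ext fun k => by rw [hall', map_zero]))
  set s₁ := (1 - co Q c e l v) / co Q c e l u
  set s₂ := (-1 - co Q c e l v) / co Q c e l u
  have hx : ∀ k, k ∉ K → ∀ s : F, co Q c e k (v + s • u) = 0 := fun k hk s => by
    obtain ⟨a, b⟩ := hsupp k hk
    simp [hu, map_add, map_smul, map_sub, a, b]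
  by_cases h1 : v + s₁ • u = e l
  · have h2 : -(v + s₂ • u) ≠ e l := fun h2 => by
      have e0 : (2 : F) • e l = (s₁ - s₂) • u := by
        linear_combination (norm := module) -h1 - h2
      have := congrArg Q e0
      rw [QuadraticMap.map_smul, QuadraticMap.map_smul, h.frame.value, hin.1, smul_zero,
        smul_eq_mul] at this
      exact mul_ne_zero (mul_ne_zero h.frame.two h.frame.two) h.frame.ne_zero this
    refine short_of_unit h (hall s₂).neg ?_ h2 (fun k hk => by rw [map_neg, hx k hk, neg_zero])
      hcard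
    simp [map_add, map_smul, s₂, hl]
  · refine short_of_unit h (hall s₁) ?_ h1 (fun k hk => hx k hk _) hcard
    simp [map_add, map_smul, s₁, hl]

/-- A short vector has an orthogonal one with two of its coordinates exchanged up to sign. -/
lemma exists_partner {u : ι → F} (hu : Short Q c e M u) {a b : Fin t} (hab : a ≠ b)
    (ha : co Q c e a u ≠ 0) (hb : co Q c e b u ≠ 0) :
    ∃ u', Short Q c e M u' ∧ polar Q u u' = 0 ∧
      co Q c e a u' = co Q c e b u ∧ co Q c e b u' = -co Q c e a u ∧
        ∀ k, k ≠ a → k ≠ b → co Q c e k u ≠ 0 → co Q c e k u' = 0 := by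
  classical
  obtain ⟨hu0, hQu, s, hs, hsmem, hin⟩ := hu
  have has : a ∈ s := (hsmem a).2 ha
  have hbs : b ∈ s := (hsmem b).2 hb
  have hzero : ∀ k, k ∉ s → co Q c e k u = 0 := fun k hk => by
    by_contra h'; exact hk ((hsmem k).2 h')
  -- transport along pairs of transpositions
  have htr : ∀ {x : ι → F}, Short Q c e M x → ∀ {p q p' q' : Fin t}, p ≠ q → p' ≠ q' →
      Short Q c e M (ap (rf Q (e p - e q) * rf Q (e p' - e q')) x) := by
    rintro x ⟨hx0, hQx, r, hr, hrmem, hxin⟩ p q p' q' hpq hp'q'
    refine ⟨ap_ne_zero _ hx0, by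
      rw [mem_isometryGroup_iff.mp (keep_isom h (swap_keep h hpq hp'q'))]; exact hQx,
      r.image fun k => Equiv.swap p q (Equiv.swap p' q' k), Finset.card_image_le.trans hr,
      fun k => ?_, fun m hm => ?_⟩
    · rw [co_swap h hpq hp'q', Finset.mem_image]
      constructor
      · rintro ⟨j, hj, rfl⟩
        simpa using (hrmem j).1 hj
      · intro hk
        exact ⟨_, (hrmem _).2 hk, by simp⟩
    · rw [co_swap h hpq hp'q'] at hm
      have h1 := (hxin _ hm).conj (keep_isom h) (swap_keep h hpq hp'q')
      rw [ap_swap_frame h hpq hp'q'] at h1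
      simpa using h1
  have houtside : ∃ o o', o ∉ s ∧ o' ∉ s ∧ o ≠ o' := by
    obtain ⟨o, ho⟩ := exists_outside h s (by omega)
    obtain ⟨o', ho'⟩ := exists_outside h (insert o s) (by
      have := Finset.card_insert_le o s; omega)
    simp only [Finset.mem_insert, not_or] at ho'
    exact ⟨o, o', ho, ho'.2, Ne.symm ho'.1⟩
  -- exchange the two coordinates and change one sign
  obtain ⟨o, o', ho, ho', hoo⟩ := houtside
  have hao : a ≠ o := fun e' => ho (e' ▸ has)
  have hao' : a ≠ o' := fun e' => ho' (e' ▸ has)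
  have hbo : b ≠ o := fun e' => ho (e' ▸ hbs)
  have hbo' : b ≠ o' := fun e' => ho' (e' ▸ hbs)
  set y := ap (rf Q (e a - e b) * rf Q (e o - e o')) u
  have hy : Short Q c e M y := htr ⟨hu0, hQu, s, hs, hsmem, hin⟩ hab hoo
  set g := rf Q (e b) * rf Q (e o)
  have hg : g ∈ keep Q c e M := rf_pair_keep h (Refl.frame h b) (Refl.frame h o)
  have hgco : ∀ k, co Q c e k (ap g y) = if k = b then -co Q c e k y else
      if k = o then -co Q c e k y else co Q c e k y := fun k => by
    simp only [g, ap_mul, h.frame.co_rf_e]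
    by_cases hk : k = b
    · subst hk; rw [if_pos rfl, if_neg hbo, if_pos rfl]
    · rw [if_neg hk, if_neg hk]
  have hy' : Short Q c e M (ap g y) := by
    obtain ⟨hy0, hQy, r, hr, hrmem, hyin⟩ := hy
    refine ⟨ap_ne_zero _ hy0, by rw [mem_isometryGroup_iff.mp (keep_isom h hg)]; exact hQy,
      r, hr, fun k => ?_, fun m hm => ?_⟩
    · rw [hrmem, hgco]; split_ifs <;> simp
    · have hm0 : co Q c e m y = 0 := by
        rw [hgco] at hm; split_ifs at hm <;> simpa using hm
      have h1 := (hyin m hm0).conj (keep_isom h) hg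
      have e1 : ap g (e m) = (if m = b ∨ m = o then (-1 : F) else 1) • e m := by
        refine h.frame.ext fun k => ?_
        simp only [g, ap_mul, h.frame.co_rf_e, map_smul, smul_eq_mul, h.frame.co_e]
        by_cases hkm : k = m
        · subst hkm
          by_cases hkb : k = b
          · subst hkb; simp [hbo]
          · simp [hkb]
        · simp [hkm]
      rw [e1] at h1
      have h2 := h1.smul (if m = b ∨ m = o then (-1 : F) else 1)
      rwa [smul_smul, show ((if m = b ∨ m = o then (-1 : F) else 1) *
        (if m = b ∨ m = o then (-1 : F) else 1)) = 1 by split_ifs <;> ring, one_smul] at h2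
  have h0a : co Q c e a (ap g y) = co Q c e b u := by
    rw [hgco, if_neg hab, if_neg hao, co_swap h hab hoo, Equiv.swap_apply_left,
      Equiv.swap_apply_of_ne_of_ne hbo hbo']
  have h0b : co Q c e b (ap g y) = -co Q c e a u := by
    rw [hgco, if_pos rfl, co_swap h hab hoo, Equiv.swap_apply_right,
      Equiv.swap_apply_of_ne_of_ne hao hao']
  -- move the other coordinates out of the support
  have hmove : ∀ R : Finset (Fin t), R ⊆ s → a ∉ R → b ∉ R → ∃ u', Short Q c e M u' ∧
      co Q c e a u' = co Q c e b u ∧ co Q c e b u' = -co Q c e a u ∧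
        ∀ k ∈ R, co Q c e k u' = 0 := by
    intro R
    induction R using Finset.induction_on with
    | empty => exact fun _ _ _ => ⟨_, hy', h0a, h0b, by simp⟩
    | insert r R hr ih =>
      intro hRs haR hbR
      simp only [Finset.mem_insert, not_or] at haR hbR
      obtain ⟨u', hu', e1, e2, e3⟩ := ih (fun k hk => hRs (Finset.mem_insert_of_mem hk)) haR.2 hbR.2
      have hu'c := hu'
      obtain ⟨-, -, r', hr', hr'mem, -⟩ := hu'c
      have har' : a ∈ r' := (hr'mem a).2 (by rw [e1]; exact hb)
      have hbr' : b ∈ r' := (hr'mem b).2 (by rw [e2]; exact neg_ne_zero.2 ha)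
      obtain ⟨m, hm⟩ := exists_outside h (s ∪ r') (by
        have := Finset.card_union_add_card_inter s r'
        have : ({a, b} : Finset (Fin t)).card ≤ (s ∩ r').card := Finset.card_le_card (by
          intro k hk
          rcases Finset.mem_insert.1 hk with rfl | hk
          · exact Finset.mem_inter.2 ⟨has, har'⟩
          · exact Finset.mem_inter.2 ⟨(Finset.mem_singleton.1 hk) ▸ hbs,
              (Finset.mem_singleton.1 hk) ▸ hbr'⟩)
        rw [Finset.card_pair hab] at this
        omega)
      obtain ⟨p, hp⟩ := exists_outside h (insert r (insert m r')) (by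
        have := Finset.card_insert_le r (insert m r')
        have := Finset.card_insert_le m r'
        omega)
      obtain ⟨p', hp'⟩ := exists_outside h (insert p (insert r (insert m r'))) (by
        have := Finset.card_insert_le p (insert r (insert m r'))
        have := Finset.card_insert_le r (insert m r')
        have := Finset.card_insert_le m r'
        omega)
      simp only [Finset.mem_union, Finset.mem_insert, not_or] at hm hp hp'
      have hrs : r ∈ s := hRs (Finset.mem_insert_self r R)
      have hrm : r ≠ m := fun e' => hm.1 (e' ▸ hrs)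
      have hpp : p ≠ p' := Ne.symm hp'.1
      have hz : ∀ k, k ∉ r' → co Q c e k u' = 0 := fun k hk => by
        by_contra h'; exact hk ((hr'mem k).2 h')
      have hsm : ∀ k, k ∈ s → k ≠ m := fun k hk e' => hm.1 (e' ▸ hk)
      have hpq : ∀ k, k ∈ r' → Equiv.swap p p' k = k := fun k hk =>
        Equiv.swap_apply_of_ne_of_ne (fun e' => hp.2.2 (e' ▸ hk)) (fun e' => hp'.2.2.2 (e' ▸ hk))
      refine ⟨_, htr hu' hrm hpp, ?_, ?_, fun k hk => ?_⟩
      · rw [co_swap h hrm hpp, Equiv.swap_apply_of_ne_of_ne haR.1 (hsm a has),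
          hpq a har', e1]
      · rw [co_swap h hrm hpp, Equiv.swap_apply_of_ne_of_ne hbR.1 (hsm b hbs),
          hpq b hbr', e2]
      · rw [co_swap h hrm hpp]
        rcases Finset.mem_insert.1 hk with rfl | hk'
        · rw [Equiv.swap_apply_left, Equiv.swap_apply_of_ne_of_ne (Ne.symm hp.2.1)
            (Ne.symm hp'.2.2.1)]
          exact hz m hm.2
        · rw [Equiv.swap_apply_of_ne_of_ne (fun e' => hr (by rw [← e']; exact hk'))
            (hsm k (hRs hk))]
          by_cases hkp : k = p
          · rw [hkp, Equiv.swap_apply_left]; exact hz p' hp'.2.2.2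
          by_cases hkp' : k = p'
          · rw [hkp', Equiv.swap_apply_right]; exact hz p hp.2.2
          rw [Equiv.swap_apply_of_ne_of_ne hkp hkp', e3 k hk']
  obtain ⟨u', hu', e1, e2, e3⟩ := hmove ((s.erase a).erase b)
    ((Finset.erase_subset _ _).trans (Finset.erase_subset _ _)) (by simp [hab]) (by simp)
  have h3 : ∀ k, k ≠ a → k ≠ b → co Q c e k u ≠ 0 → co Q c e k u' = 0 := fun k hka hkb hk =>
    e3 k (Finset.mem_erase.2 ⟨hkb, Finset.mem_erase.2 ⟨hka, (hsmem k).2 hk⟩⟩)
  refine ⟨u', hu', ?_, e1, e2, h3⟩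
  rw [h.frame.polar_eq, Finset.sum_eq_add a b hab (fun k _ hk => ?_)
    (by simp) (by simp), e1, e2]
  · ring
  · by_cases hk0 : co Q c e k u = 0
    · rw [hk0, zero_mul]
    · rw [h3 k hk.1 hk.2 hk0, mul_zero]

/-- A short vector is full for the stabiliser of the reflection vectors. -/
lemma full_of_short {u : ι → F} (hu : Short Q c e M u) : Full Q (keep Q c e M) u := by
  classical
  obtain ⟨hu0, hQu, s, hs, hsmem, hin⟩ := hu
  have hzero : ∀ k, k ∉ s → co Q c e k u = 0 := fun k hk => by
    by_contra h'; exact hk ((hsmem k).2 h')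
  have hsum : ∀ (T : Finset (Fin t)) (f : Fin t → ι → F),
      (∀ k ∈ T, Inn Q (keep Q c e M) u (f k)) → Inn Q (keep Q c e M) u (∑ k ∈ T, f k) := by
    intro T f hT
    induction T using Finset.induction_on with
    | empty => simpa using Inn.zero hQu
    | insert r T hr ih =>
      rw [Finset.sum_insert hr]
      exact (hT r (Finset.mem_insert_self r T)).add
        (ih fun k hk => hT k (Finset.mem_insert_of_mem hk))
  obtain ⟨a, ha⟩ : ∃ a, co Q c e a u ≠ 0 := by
    by_contra! h'
    exact hu0 (h.frame.ext fun k => by rw [h', map_zero])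
  set w : Fin t → ι → F := fun b => co Q c e a u • e b - co Q c e b u • e a with hw
  have hpair : ∀ b, co Q c e b u ≠ 0 → Inn Q (keep Q c e M) u (w b) := by
    intro b hb
    by_cases hab : a = b
    · subst hab; simpa [hw] using Inn.zero hQu
    obtain ⟨u', hu', hpol, e1, e2, e3⟩ :=
      exists_partner h ⟨hu0, hQu, s, hs, hsmem, hin⟩ hab ha hb
    obtain ⟨-, hQu', r, hr, hrmem, hin'⟩ := hu'
    obtain ⟨z, hz⟩ := exists_outside h (s ∪ r) (by
      have := Finset.card_union_add_card_inter s r
      have : ({a, b} : Finset (Fin t)).card ≤ (s ∩ r).card := Finset.card_le_card (by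
        intro k hk
        rcases Finset.mem_insert.1 hk with rfl | hk
        · exact Finset.mem_inter.2 ⟨(hsmem _).2 ha, (hrmem _).2 (by rw [e1]; exact hb)⟩
        · rw [Finset.mem_singleton.1 hk]
          exact Finset.mem_inter.2 ⟨(hsmem _).2 hb, (hrmem _).2 (by rw [e2]; exact neg_ne_zero.2 ha)⟩)
      rw [Finset.card_pair hab] at this
      omega)
    simp only [Finset.mem_union, not_or] at hz
    have hzu : co Q c e z u = 0 := hzero z hz.1
    have hzu' : co Q c e z u' = 0 := by
      by_contra h'; exact hz.2 ((hrmem z).2 h')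
    have hiz := hin' z hzu'
    have hg := hiz.mem hQu' hiz.2.1
    have h1 := (hin z hzu).conj (keep_isom h) hg
    rw [ap_sg_fix hQu' hiz.2.1 hpol (by rw [h.frame.polar_e, hzu, mul_zero]), ap_sg,
      polar_comm Q (e z) u', h.frame.polar_e, hzu', mul_zero, zero_smul, add_zero,
      polar_self_mul, h.frame.value, mul_zero, add_zero] at h1
    have h2 : Inn Q (keep Q c e M) u u' := by
      have := ((hin z hzu).sub h1).smul (2 * c)⁻¹
      rwa [sub_sub_cancel, smul_smul, inv_mul_cancel₀ h.frame.two_c, one_smul] at this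
    have h3 : Inn Q (keep Q c e M) u
        (∑ k ∈ (Finset.univ.erase a).erase b, co Q c e k u' • e k) := hsum _ _ fun k hk => by
      simp only [Finset.mem_erase, Finset.mem_univ, and_true] at hk
      by_cases hk0 : co Q c e k u = 0
      · exact (hin k hk0).smul _
      · rw [e3 k hk.2 hk.1 hk0, zero_smul]; exact Inn.zero hQu
    have h4 := (h2.sub h3).smul (-1)
    convert h4 using 1
    refine h.frame.ext fun i => ?_
    simp only [hw, map_sub, map_smul, smul_eq_mul, map_sum, h.frame.co_e, mul_ite, mul_one,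
      mul_zero, Finset.sum_ite_eq, Finset.mem_erase, Finset.mem_univ, and_true]
    by_cases hia : i = a
    · subst hia; simp [hab, e1]
    · by_cases hib : i = b
      · subst hib; simp [hia, e2]
      · simp [hia, hib]
  intro hQ v hv
  refine Inn.mem ?_ hQ hv
  have hv' : ∑ k, co Q c e k u * co Q c e k v = 0 := by
    have := h.frame.polar_eq u v
    rw [hv] at this
    exact (mul_eq_zero.1 this.symm).resolve_left h.frame.two_c
  have h1 : Inn Q (keep Q c e M) u (∑ k ∈ s, (co Q c e k v / co Q c e a u) • w k) :=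
    hsum _ _ fun k hk => (hpair k ((hsmem k).1 hk)).smul _
  have h2 : Inn Q (keep Q c e M) u (∑ k ∈ Finset.univ \ s, co Q c e k v • e k) :=
    hsum _ _ fun k hk => (hin k (hzero k (Finset.mem_sdiff.1 hk).2)).smul _
  have h3 := h2.add h1
  suffices hval : (∑ k ∈ Finset.univ \ s, co Q c e k v • e k) +
      ∑ k ∈ s, (co Q c e k v / co Q c e a u) • w k = v by rwa [hval] at h3
  have hsplit := Finset.sum_sdiff (Finset.subset_univ s) (f := fun k => co Q c e k v • e k)
  rw [h.frame.rep] at hsplit
  have hterm : ∀ k ∈ s, (co Q c e k v / co Q c e a u) • w k =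
      co Q c e k v • e k - (co Q c e k u * co Q c e k v / co Q c e a u) • e a := fun k _ => by
    simp only [hw]
    match_scalars <;> field_simp
  rw [Finset.sum_congr rfl hterm, Finset.sum_sub_distrib, ← add_sub_assoc, hsplit, ← Finset.sum_smul,
    ← Finset.sum_div, Finset.sum_subset (Finset.subset_univ s) (fun k _ hk => by
      rw [hzero k hk, zero_mul]), hv', zero_div, zero_smul, sub_zero]

/-- A short vector makes the group contain `omegaGL`. -/
theorem omega_le_of_short [Finite F] (hn : 5 ≤ Fintype.card ι) {u : ι → F}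
    (hu : Short Q c e M u) : Cfsg.Geo.omegaGL (⇑Q) ≤ M := by
  classical
  obtain ⟨hu0, hQu, s, hs, hsmem, hin⟩ := hu
  obtain ⟨a, ha⟩ : ∃ a, co Q c e a u ≠ 0 := by
    by_contra! h'
    exact hu0 (h.frame.ext fun k => by rw [h', map_zero])
  obtain ⟨o, ho⟩ := exists_outside h s (by omega)
  have hao : a ≠ o := fun e' => ho (e' ▸ (hsmem a).2 ha)
  have hou : co Q c e o u = 0 := by
    by_contra h'; exact ho ((hsmem o).2 h')
  have hfull := full_of_short h ⟨hu0, hQu, s, hs, hsmem, hin⟩
  have hg := rf_pair_keep h (Refl.frame h a) (Refl.frame h o)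
  refine le_trans (Full.le_of_pair h.frame.nondeg hn (keep_isom h) hfull
    (Full.ap (keep_isom h) hg hfull) hQu
    (by rw [mem_isometryGroup_iff.mp (keep_isom h hg)]; exact hQu) fun h0 => ?_) keep_le
  rw [ap_mul, ap_rf_fix (x := u) (by rw [h.frame.polar_e, hou, mul_zero]), ap_rf, h.frame.value,
    h.frame.polar_e, polar_sub_right, polar_smul_right, polar_self_mul, hQu, h.frame.polar_e,
    smul_eq_mul] at h0
  have hc := h.frame.ne_zero
  field_simp at h0
  have : 4 * (c * (co Q c e a u * co Q c e a u)) = 0 := by linear_combination -h0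
  exact mul_ne_zero (by rw [show (4 : F) = 2 * 2 by norm_num]
                        exact mul_ne_zero h.frame.two h.frame.two)
    (mul_ne_zero hc (mul_ne_zero ha ha)) this

end CfsgLib.Geometric.Orth.Frame
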